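import Cfsg.Agent.H80.SylowIn

/-! A 2-group with an elementary abelian subgroup of order 8 has a normal four-group;
2-rank of involution centralizers. -/

set_option autoImplicit false

namespace Cfsg.Agent.H80

open Cfsg.Agent.H4

/-- Extend an elementary abelian 2-subgroup by a commuting involution outside it. -/
theorem exists_extend {G : Type*} [Group G] (A : Subgroup G) (hA : ∀ a ∈ A, a * a = 1) (e : G)
    (he : e * e = 1) (hc : ∀ a ∈ A, a * e = e * a) (heA : e ∉ A) :
    ∃ B : Subgroup G, A ≤ B ∧ e ∈ B ∧ Nat.card B = 2 * Nat.card A ∧ (∀ b ∈ B, b * b = 1) ∧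
      ∀ b ∈ B, b ∈ A ∨ b * e ∈ A := by
  have hinv : ∀ {b : G}, b * e ∈ A → e * b = b * e := by
    intro b hb
    have h1 := hc _ hb
    -- (b e) e = e (b e)
    have h2 : b = e * (b * e) := by
      calc b = b * (e * e) := by rw [he, mul_one]
        _ = b * e * e := by rw [mul_assoc]
        _ = e * (b * e) := h1
    calc e * b = e * (e * (b * e)) := by rw [← h2]
      _ = b * e := by rw [← mul_assoc, he, one_mul]
  let B : Subgroup G :=
    { carrier := {b | b ∈ A ∨ b * e ∈ A}
      one_mem' := Or.inl A.one_mem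
      mul_mem' := by
        rintro b c (hb | hb) (hc' | hc')
        · exact Or.inl (A.mul_mem hb hc')
        · right; rw [mul_assoc]; exact A.mul_mem hb hc'
        · right
          rw [mul_assoc, hc c hc', ← mul_assoc]; exact A.mul_mem hb hc'
        · left
          have h := A.mul_mem hb hc'
          have h2 : b * e * (c * e) = b * c := by
            rw [mul_assoc, ← mul_assoc e, hinv hc', mul_assoc, he, mul_one]
          rwa [h2] at h
      inv_mem' := by
        rintro b (hb | hb)
        · exact Or.inl (A.inv_mem hb)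
        · right
          have h := A.inv_mem hb
          have hei : e⁻¹ = e := inv_eq_of_mul_eq_one_left he
          rw [mul_inv_rev, hei] at h
          have h3 : e * b⁻¹ = b⁻¹ * e := by
            have h4 := hinv hb
            calc e * b⁻¹ = b⁻¹ * (b * e) * b⁻¹ := by group
              _ = b⁻¹ * (e * b) * b⁻¹ := by rw [h4]
              _ = b⁻¹ * e := by group
          rwa [h3] at h }
  have hAB : A ≤ B := fun a ha => Or.inl ha
  have heB : e ∈ B := by right; rw [he]; exact A.one_mem
  refine ⟨B, hAB, heB, ?_, ?_, fun b hb => hb⟩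
  · have h1 : (A.subgroupOf B).index = 2 := by
      rw [Subgroup.index_eq_two_iff]
      refine ⟨⟨e, heB⟩, fun b => ?_⟩
      simp only [Subgroup.mem_subgroupOf, Subgroup.coe_mul]
      rcases b.2 with hb | hb
      · right
        refine ⟨hb, fun h => heA ?_⟩
        have := A.mul_mem (A.inv_mem hb) h
        rwa [inv_mul_cancel_left] at this
      · left
        refine ⟨hb, fun h => heA ?_⟩
        have := A.mul_mem (A.inv_mem h) hb
        rwa [inv_mul_cancel_left] at this
    have h2 := (A.subgroupOf B).card_mul_index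
    rw [h1] at h2
    have h3 : Nat.card (A.subgroupOf B) = Nat.card A :=
      Nat.card_congr (Subgroup.subgroupOfEquivOfLe hAB).toEquiv
    rw [h3] at h2
    rw [← h2, mul_comm]
  · rintro b (hb | hb)
    · exact hA b hb
    · have h1 := hA _ hb
      have h2 : b * e * (b * e) = b * b := by
        rw [mul_assoc, ← mul_assoc e, hinv hb, mul_assoc, he, mul_one]
      rwa [h2] at h1

/-- Main counting lemma. -/
theorem exists_normal_four {S : Type*} [Group S] [Finite S] (hS : IsPGroup 2 S) (z : S)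
    (hz : z ∈ Subgroup.center S) (hz2 : orderOf z = 2) (e₁ e₂ : S) (h1 : e₁ * e₁ = 1)
    (h2 : e₂ * e₂ = 1) (h12 : e₁ * e₂ = e₂ * e₁)
    (h1z : e₁ ∉ Subgroup.zpowers z) (h2z : e₂ ∉ Subgroup.zpowers z)
    (h12z : e₁ * e₂ ∉ Subgroup.zpowers z) :
    ∃ t : S, t * t = 1 ∧ t ∉ Subgroup.zpowers z ∧ ∀ g : S, g * t * g⁻¹ = t ∨ g * t * g⁻¹ = t * z := by
  classical
  have hp2 := Fact.mk Nat.prime_two
  have hN : (Subgroup.zpowers z).Normal := by
    constructor
    intro n hn g
    have hn' : n ∈ Subgroup.center S := (Subgroup.zpowers_le.mpr hz) hn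
    rw [Subgroup.mem_center_iff.mp hn' g, mul_inv_cancel_right]
    exact hn
  have hzz := mul_self_of_orderOf_two hz2
  have hzc : ∀ g : S, g * z = z * g := Subgroup.mem_center_iff.mp hz
  have hmemz : ∀ x : S, x ∈ Subgroup.zpowers z ↔ x = 1 ∨ x = z := by
    intro x
    rw [mem_zpowers_iff_mem_range_orderOf, hz2]
    simp only [Finset.mem_image, Finset.mem_range]
    constructor
    · rintro ⟨k, hk, rfl⟩
      interval_cases k
      · left; exact pow_zero z
      · right; exact pow_one z
    · rintro (rfl | rfl)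
      · exact ⟨0, by norm_num, pow_zero _⟩
      · exact ⟨1, by norm_num, pow_one _⟩
  set Q := S ⧸ Subgroup.zpowers z with hQ
  let mk : S →* Q := QuotientGroup.mk' (Subgroup.zpowers z)
  have hmk : Function.Surjective mk := QuotientGroup.mk'_surjective _
  have hmkeq : ∀ a b : S, mk a = mk b ↔ b = a ∨ b = a * z := by
    intro a b
    have : mk a = mk b ↔ a⁻¹ * b ∈ Subgroup.zpowers z := QuotientGroup.eq
    rw [this, hmemz]
    constructor
    · rintro (h | h)
      · left; exact (inv_mul_eq_one.mp h).symm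
      · right; rw [← h]; group
    · rintro (rfl | rfl)
      · left; group
      · right; group
  have hsqz : ∀ t : S, (t * z) * (t * z) = t * t := by
    intro t
    calc (t * z) * (t * z) = t * (z * t) * z := by group
      _ = t * (t * z) * z := by rw [hzc t]
      _ = t * t * (z * z) := by group
      _ = t * t := by rw [hzz, mul_one]
  let Good : Q → Prop := fun q => ∃ t : S, mk t = q ∧ t * t = 1
  have hGood : ∀ t : S, Good (mk t) ↔ t * t = 1 := by
    intro t
    constructor
    · rintro ⟨t', h, h'⟩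
      rcases (hmkeq t' t).mp h with rfl | rfl
      · exact h'
      · rw [hsqz]; exact h'
    · intro h; exact ⟨t, rfl, h⟩
  have hGoodconj : ∀ (g : S) (q : Q), Good q → Good (mk g * q * (mk g)⁻¹) := by
    rintro g q ⟨t, rfl, ht⟩
    refine ⟨g * t * g⁻¹, by simp, ?_⟩
    calc g * t * g⁻¹ * (g * t * g⁻¹) = g * (t * t) * g⁻¹ := by group
      _ = 1 := by rw [ht]; group
  let Ω := {q : Q // q ≠ 1 ∧ Good q}
  let act : MulAction S Ω :=
    { smul := fun g q => ⟨mk g * q.1 * (mk g)⁻¹, by
        refine ⟨fun h => q.2.1 ?_, hGoodconj g _ q.2.2⟩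
        exact conj_eq_one_iff.mp h⟩
      one_smul := by
        intro q
        apply Subtype.ext
        change mk 1 * q.1 * (mk 1)⁻¹ = q.1
        simp
      mul_smul := by
        intro a b q
        apply Subtype.ext
        change mk (a * b) * q.1 * (mk (a * b))⁻¹ = mk a * (mk b * q.1 * (mk b)⁻¹) * (mk a)⁻¹
        rw [map_mul]; group }
  have hsmul : ∀ (g : S) (q : Ω), (g • q).1 = mk g * q.1 * (mk g)⁻¹ := fun _ _ => rfl
  -- the set F
  let F := {q : Q // Good q ∧ mk e₁ * q * (mk e₁)⁻¹ = q ∧ mk e₂ * q * (mk e₂)⁻¹ = q}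
  let E : Subgroup S := Subgroup.closure {e₁, e₂}
  have hEp : IsPGroup 2 E := hS.to_subgroup E
  have hfix : ∀ q : Ω, q ∈ MulAction.fixedPoints E Ω ↔
      mk e₁ * q.1 * (mk e₁)⁻¹ = q.1 ∧ mk e₂ * q.1 * (mk e₂)⁻¹ = q.1 := by
    intro q
    constructor
    · intro h
      have he1 : e₁ ∈ E := Subgroup.subset_closure (by simp)
      have he2 : e₂ ∈ E := Subgroup.subset_closure (by simp)
      exact ⟨congrArg Subtype.val (h ⟨e₁, he1⟩), congrArg Subtype.val (h ⟨e₂, he2⟩)⟩
    · rintro ⟨ha, hb⟩ ⟨g, hg⟩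
      have hle : E ≤ MulAction.stabilizer S q := by
        rw [Subgroup.closure_le]
        rintro x (rfl | rfl)
        · exact Subtype.ext ha
        · exact Subtype.ext hb
      exact hle hg
  have hFcard : Nat.card F = Nat.card (MulAction.fixedPoints E Ω) + 1 := by
    rw [← Finite.card_option]
    refine Nat.card_congr
      { toFun := fun q => if h : q.1 = 1 then none else
          some ⟨⟨q.1, h, q.2.1⟩, (hfix _).mpr q.2.2⟩
        invFun := fun o => match o with
          | none => ⟨1, ⟨1, map_one mk, one_mul 1⟩, by simp, by simp⟩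
          | some q => ⟨q.1.1, q.1.2.2, (hfix _).mp q.2⟩
        left_inv := by
          rintro ⟨q, hq⟩
          by_cases h : q = 1
          · subst h; simp
          · simp [h]
        right_inv := by
          rintro (_ | ⟨⟨q, hq⟩, hq'⟩)
          · simp
          · simp [hq.1] }
  -- commuting predicate
  let cm : S → Q → Prop := fun e q => ∀ t, mk t = q → e * t = t * e
  have hcm : ∀ e t, cm e (mk t) ↔ e * t = t * e := by
    intro e t
    constructor
    · intro h; exact h t rfl
    · intro h t' ht'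
      rcases (hmkeq t' t).mp ht' with rfl | rfl
      · exact h
      · have h3 : e * t' * z = t' * e * z := by
          rw [mul_assoc, h, mul_assoc, mul_assoc, ← hzc e]
        exact mul_right_cancel h3
  let c : Q → S := fun q => if cm e₁ q then e₁ else if cm e₂ q then e₂ else e₁ * e₂
  have hc1 : ∀ q, c q * e₁ = e₁ * c q := by
    intro q
    simp only [c]
    split_ifs
    · rfl
    · exact h12.symm
    · rw [mul_assoc, ← h12]
  have hc2 : ∀ q, c q * e₂ = e₂ * c q := by
    intro q
    simp only [c]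
    split_ifs
    · exact h12
    · rfl
    · rw [mul_assoc, ← mul_assoc e₂, ← h12, mul_assoc]
  have hcc : ∀ q, c q * c q = 1 := by
    intro q
    simp only [c]
    split_ifs
    · exact h1
    · exact h2
    · calc e₁ * e₂ * (e₁ * e₂) = e₁ * (e₂ * e₁) * e₂ := by group
        _ = e₁ * (e₁ * e₂) * e₂ := by rw [h12]
        _ = (e₁ * e₁) * (e₂ * e₂) := by group
        _ = 1 := by rw [h1, h2, one_mul]
  have hcz : ∀ q, mk (c q) ≠ 1 := by
    intro q h
    have h3 : c q ∈ Subgroup.zpowers z := (QuotientGroup.eq_one_iff _).mp h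
    simp only [c] at h3
    split_ifs at h3
    · exact h1z h3
    · exact h2z h3
    · exact h12z h3
  have hcmmul : ∀ e : S, (∀ q, c q * e = e * c q) → ∀ t q, cm e (mk t * mk (c q)) ↔ cm e (mk t) := by
    intro e he t q
    rw [← map_mul, hcm, hcm]
    constructor
    · intro h
      have h3 : e * t * c q = t * e * c q := by
        rw [mul_assoc, h, mul_assoc, mul_assoc, he]
      exact mul_right_cancel h3
    · intro h
      rw [← mul_assoc, h, mul_assoc, ← he, mul_assoc]
  have hcmul : ∀ t q, c (mk t * mk (c q)) = c (mk t) := by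
    intro t q
    simp only [c]
    rw [hcmmul e₁ hc1 t q, hcmmul e₂ hc2 t q]
  have hccomm : ∀ t : S, mk e₁ * mk t * (mk e₁)⁻¹ = mk t → mk e₂ * mk t * (mk e₂)⁻¹ = mk t →
      c (mk t) * t = t * c (mk t) := by
    intro t ha hb
    have key : ∀ e : S, mk e * mk t * (mk e)⁻¹ = mk t → e * t = t * e ∨ e * t = t * e * z := by
      intro e he
      have h3 : mk (t * e) = mk (e * t) := by
        rw [map_mul, map_mul]; exact (mul_inv_eq_iff_eq_mul.mp he).symm
      rcases (hmkeq _ _).mp h3 with h | h
      · left; exact h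
      · right; exact h
    simp only [c]
    split_ifs with h3 h4
    · exact (hcm _ _).mp h3
    · exact (hcm _ _).mp h4
    · rw [hcm] at h3 h4
      have h5 := (key e₁ ha).resolve_left h3
      have h6 := (key e₂ hb).resolve_left h4
      calc e₁ * e₂ * t = e₁ * (e₂ * t) := by group
        _ = e₁ * (t * e₂ * z) := by rw [h6]
        _ = (e₁ * t) * e₂ * z := by group
        _ = t * e₁ * z * e₂ * z := by rw [h5]
        _ = t * e₁ * (z * e₂) * z := by group
        _ = t * e₁ * (e₂ * z) * z := by rw [hzc e₂]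
        _ = t * (e₁ * e₂) * (z * z) := by group
        _ = t * (e₁ * e₂) := by rw [hzz, mul_one]
  let β : F → F := fun q => ⟨q.1 * mk (c q.1), by
    obtain ⟨q, hq, ha, hb⟩ := q
    obtain ⟨t, rfl⟩ := hmk q
    have htt := (hGood t).mp hq
    have hct := hccomm t ha hb
    refine ⟨⟨t * c (mk t), map_mul _ _ _, ?_⟩, ?_, ?_⟩
    · calc t * c (mk t) * (t * c (mk t)) = t * (c (mk t) * t) * c (mk t) := by group
        _ = t * (t * c (mk t)) * c (mk t) := by rw [hct]
        _ = (t * t) * (c (mk t) * c (mk t)) := by group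
        _ = 1 := by rw [htt, hcc, one_mul]
    · have h3 : mk e₁ * mk (c (mk t)) = mk (c (mk t)) * mk e₁ := by
        rw [← map_mul, ← map_mul, hc1]
      calc mk e₁ * (mk t * mk (c (mk t))) * (mk e₁)⁻¹
          = (mk e₁ * mk t * (mk e₁)⁻¹) * (mk e₁ * mk (c (mk t))) * (mk e₁)⁻¹ := by group
        _ = mk t * (mk (c (mk t)) * mk e₁) * (mk e₁)⁻¹ := by rw [ha, h3]
        _ = mk t * mk (c (mk t)) := by group
    · have h3 : mk e₂ * mk (c (mk t)) = mk (c (mk t)) * mk e₂ := by
        rw [← map_mul, ← map_mul, hc2]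
      calc mk e₂ * (mk t * mk (c (mk t))) * (mk e₂)⁻¹
          = (mk e₂ * mk t * (mk e₂)⁻¹) * (mk e₂ * mk (c (mk t))) * (mk e₂)⁻¹ := by group
        _ = mk t * (mk (c (mk t)) * mk e₂) * (mk e₂)⁻¹ := by rw [hb, h3]
        _ = mk t * mk (c (mk t)) := by group⟩
  have hβ2 : ∀ q, β (β q) = q := by
    rintro ⟨q, hq⟩
    obtain ⟨t, rfl⟩ := hmk q
    apply Subtype.ext
    change mk t * mk (c (mk t)) * mk (c (mk t * mk (c (mk t)))) = mk t
    rw [hcmul, mul_assoc, ← map_mul mk (c _), hcc, map_one, mul_one]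
  have hβne : ∀ q, β q ≠ q := by
    intro q h
    have h3 : q.1 * mk (c q.1) = q.1 := congrArg Subtype.val h
    exact hcz _ (mul_eq_left.mp h3)
  have hFeven : Nat.card F % 2 = 0 := by
    have := Fintype.ofFinite F
    have h3 := Equiv.Perm.card_fixedPoints_modEq (α := F) (f := β) (p := 2) (n := 1) (by
      funext q
      exact hβ2 q)
    have h4 : Fintype.card (Function.fixedPoints β) = 0 := by
      rw [Fintype.card_eq_zero_iff]
      exact ⟨fun q => hβne q.1 q.2⟩
    rw [h4] at h3
    rw [Nat.card_eq_fintype_card]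
    exact h3
  have hΩodd : Nat.card Ω % 2 = 1 := by
    have h3 := hEp.card_modEq_card_fixedPoints Ω
    have h4 : Nat.card (MulAction.fixedPoints E Ω) % 2 = 1 := by omega
    rw [← h4]
    exact h3
  have hne : (MulAction.fixedPoints S Ω).Nonempty :=
    hS.nonempty_fixed_point_of_prime_not_dvd_card Ω (by omega)
  obtain ⟨q, hq⟩ := hne
  obtain ⟨⟨q, hq1, hqG⟩, hq'⟩ : ∃ q : Ω, ∀ g : S, g • q = q := ⟨q, hq⟩
  obtain ⟨t, rfl⟩ := hmk q
  refine ⟨t, (hGood t).mp hqG, fun h => hq1 ((QuotientGroup.eq_one_iff _).mpr h), fun g => ?_⟩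
  have h3 : mk g * mk t * (mk g)⁻¹ = mk t := congrArg Subtype.val (hq' g)
  have h4 : mk t = mk (g * t * g⁻¹) := by rw [map_mul, map_mul, map_inv, h3]
  exact (hmkeq _ _).mp h4


section main
variable {G : Type*} [Group G] [Finite G]

theorem sq_mem_of_card_two_mul {A : Subgroup G} {x : G} (hA : Nat.card A ≤ 4) {E : Subgroup G}
    (hE : Nat.card E = 8) : ∃ e ∈ E, e ∉ A := by
  by_contra h
  push Not at h
  have h1 : E ≤ A := h
  have h2 := Subgroup.card_le_of_le h1
  omega

/-- from an elementary abelian subgroup `E` of order 8 and `z` pick two further elements -/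
theorem exists_pair {S : Subgroup G} {z : G} (hz2 : orderOf z = 2) {E : Subgroup G}
    (hE : Nat.card E = 8) (hE2 : ∀ e ∈ E, e * e = 1) (hc : ∀ e ∈ E, e * z = z * e) :
    ∃ e₁ ∈ E, ∃ e₂ ∈ E, e₁ ∉ Subgroup.zpowers z ∧ e₂ ∉ Subgroup.zpowers z ∧
      e₁ * e₂ ∉ Subgroup.zpowers z := by
  classical
  have hzz := mul_self_of_orderOf_two hz2
  have hmemz : ∀ x : G, x ∈ Subgroup.zpowers z → x = 1 ∨ x = z := by
    intro x
    rw [mem_zpowers_iff_mem_range_orderOf, hz2]
    simp only [Finset.mem_image, Finset.mem_range]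
    rintro ⟨k, hk, rfl⟩
    interval_cases k
    · left; exact pow_zero z
    · right; exact pow_one z
  obtain ⟨e₁, he1, he1z⟩ := sq_mem_of_card_two_mul (x := z) (A := Subgroup.zpowers z)
    (by rw [Nat.card_zpowers, hz2]; norm_num) hE
  obtain ⟨B, hB1, hB2, hB3, hB4, hB5⟩ := exists_extend (Subgroup.zpowers z) (by
    intro a ha
    rcases hmemz a ha with rfl | rfl
    · exact one_mul 1
    · exact hzz) e₁ (hE2 e₁ he1) (by
    intro a ha
    rcases hmemz a ha with rfl | rfl
    · rw [one_mul, mul_one]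
    · exact (hc e₁ he1).symm) he1z
  obtain ⟨e₂, he2, he2B⟩ := sq_mem_of_card_two_mul (x := z) (A := B)
    (by rw [hB3, Nat.card_zpowers, hz2]) hE
  refine ⟨e₁, he1, e₂, he2, he1z, fun h => he2B (hB1 h), fun h => he2B ?_⟩
  have h1 := B.mul_mem (B.inv_mem hB2) (hB1 h)
  rwa [inv_mul_cancel_left] at h1

/-- S0221 -/
theorem rank_three_centralizer (hno : ∀ H : Subgroup G, H.index ≠ 2)
    (hrank : ∃ E : Subgroup G, Nat.card E = 8 ∧ ∀ e ∈ E, e ^ 2 = 1) (x : G) (hx : orderOf x = 2) :
    ∃ E : Subgroup G, E ≤ Subgroup.centralizer ({x} : Set G) ∧ Nat.card E = 8 ∧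
      ∀ e ∈ E, e ^ 2 = 1 := by
  classical
  have hp2 := Fact.mk Nat.prime_two
  obtain ⟨E, hE, hE2'⟩ := hrank
  have hE2 : ∀ e ∈ E, e * e = 1 := fun e he => by rw [← pow_two]; exact hE2' e he
  have hEcomm : ∀ a ∈ E, ∀ b ∈ E, a * b = b * a := by
    intro a ha b hb
    have h1 := hE2 a ha
    have h2 := hE2 b hb
    have h3 := hE2 _ (E.mul_mem ha hb)
    calc a * b = a * (a * b * (a * b)) * b := by rw [h3, mul_one]
      _ = (a * a) * (b * a) * (b * b) := by group
      _ = b * a := by rw [h1, h2, one_mul, mul_one]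
  have hEp : IsPGroup 2 E := IsPGroup.of_card (n := 3) (by rw [hE]; norm_num)
  obtain ⟨S, hES⟩ := hEp.exists_le_sylow
  have hSnt : Nontrivial (S : Subgroup G) := by
    rw [← Finite.one_lt_card_iff_nontrivial]
    have := Subgroup.card_le_of_le hES
    omega
  -- a central involution of S
  have hZnt : Nontrivial (Subgroup.center (S : Subgroup G)) := S.2.center_nontrivial
  have hZeven : Even (Nat.card (Subgroup.center (S : Subgroup G))) := by
    obtain ⟨k, hk⟩ := IsPGroup.iff_card.mp (S.2.to_subgroup (Subgroup.center (S : Subgroup G)))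
    rw [hk, Nat.even_pow' ?_]
    · exact even_two
    · rintro rfl
      have := Finite.one_lt_card_iff_nontrivial.mpr hZnt
      rw [hk] at this
      simp at this
  obtain ⟨z0, hz0⟩ := exists_involution hZeven
  set z : (S : Subgroup G) := z0.1 with hzdef
  have hz2 : orderOf z = 2 := by rw [hzdef, Subgroup.orderOf_coe]; exact hz0
  have hzG2 : orderOf z.1 = 2 := by rw [Subgroup.orderOf_coe]; exact hz2
  have hzc : z ∈ Subgroup.center (S : Subgroup G) := z0.2
  have hzcG : ∀ g ∈ (S : Subgroup G), g * z.1 = z.1 * g := fun g hg =>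
    congrArg Subtype.val (Subgroup.mem_center_iff.mp hzc ⟨g, hg⟩)
  have hzzG := mul_self_of_orderOf_two hzG2
  obtain ⟨e₁, he1, e₂, he2, h1z, h2z, h12z⟩ := exists_pair (S := S) (z := z.1) hzG2 hE hE2
    (fun e he => hzcG e (hES he))
  have hlift : ∀ a : (S : Subgroup G), a ∈ Subgroup.zpowers z → a.1 ∈ Subgroup.zpowers z.1 := by
    intro a ha
    rw [Subgroup.mem_zpowers_iff] at ha ⊢
    obtain ⟨k, hk⟩ := ha
    exact ⟨k, by rw [← hk]; simp⟩
  have hlift' : ∀ a : (S : Subgroup G), a.1 ∈ Subgroup.zpowers z.1 → a ∈ Subgroup.zpowers z := by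
    intro a ha
    rw [Subgroup.mem_zpowers_iff] at ha ⊢
    obtain ⟨k, hk⟩ := ha
    exact ⟨k, Subtype.ext (by simpa using hk)⟩
  obtain ⟨t, htt, htz, ht⟩ := exists_normal_four S.2 z hzc hz2 ⟨e₁, hES he1⟩ ⟨e₂, hES he2⟩
    (Subtype.ext (hE2 _ he1)) (Subtype.ext (hE2 _ he2)) (Subtype.ext (hEcomm _ he1 _ he2))
    (fun h => h1z (hlift _ h)) (fun h => h2z (hlift _ h)) (fun h => h12z (hlift _ h))
  have httG : t.1 * t.1 = 1 := congrArg Subtype.val htt
  have htzG : t.1 ∉ Subgroup.zpowers z.1 := fun h => htz (hlift' _ h)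
  have htG : ∀ g ∈ (S : Subgroup G), g * t.1 * g⁻¹ = t.1 ∨ g * t.1 * g⁻¹ = t.1 * z.1 := by
    intro g hg
    rcases ht ⟨g, hg⟩ with h | h
    · left; exact congrArg Subtype.val h
    · right; exact congrArg Subtype.val h
  have hmemz : ∀ x : G, x ∈ Subgroup.zpowers z.1 → x = 1 ∨ x = z.1 := by
    intro x
    rw [mem_zpowers_iff_mem_range_orderOf, hzG2]
    simp only [Finset.mem_image, Finset.mem_range]
    rintro ⟨k, hk, rfl⟩
    interval_cases k
    · left; exact pow_zero _
    · right; exact pow_one _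
  -- the four-group V
  obtain ⟨V, hV1, hV2, hV3, hV4, hV5⟩ := exists_extend (Subgroup.zpowers z.1) (by
    intro a ha
    rcases hmemz a ha with rfl | rfl
    · exact one_mul 1
    · exact hzzG) t.1 httG (by
    intro a ha
    rcases hmemz a ha with rfl | rfl
    · rw [one_mul, mul_one]
    · exact (hzcG t.1 t.2).symm) htzG
  have hV3' : Nat.card V = 4 := by rw [hV3, Nat.card_zpowers, hzG2]
  have hVmem : ∀ v ∈ V, v = 1 ∨ v = z.1 ∨ v = t.1 ∨ v = z.1 * t.1 := by
    intro v hv
    rcases hV5 v hv with h | h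
    · rcases hmemz _ h with h | h
      · exact Or.inl h
      · exact Or.inr (Or.inl h)
    · have h3 : v = v * t.1 * t.1 := by rw [mul_assoc, httG, mul_one]
      rcases hmemz _ h with h | h
      · right; right; left; rw [h3, h, one_mul]
      · right; right; right; rw [h3, h]
  -- C = centralizer of t in S
  set C : Subgroup G := (S : Subgroup G) ⊓ Subgroup.centralizer ({t.1} : Set G) with hC
  have hCmem : ∀ g, g ∈ C ↔ g ∈ (S : Subgroup G) ∧ g * t.1 = t.1 * g := by
    intro g
    rw [hC, Subgroup.mem_inf, Subgroup.mem_centralizer_singleton_iff]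
  -- x is conjugate to an element of C
  have hxC : ∃ g : G, g * x * g⁻¹ ∈ C := by
    by_contra hcon
    push Not at hcon
    have hCS : C ≤ (S : Subgroup G) := inf_le_left
    have hSidx : ¬ 2 ∣ (S : Subgroup G).index := S.not_dvd_index
    -- relative index is 1 or 2
    have hrel : C.relIndex (S : Subgroup G) = 1 ∨ C.relIndex (S : Subgroup G) = 2 := by
      by_cases hall : (S : Subgroup G) ≤ C
      · left; exact Subgroup.relIndex_eq_one.mpr hall
      · right
        rw [SetLike.not_le_iff_exists] at hall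
        obtain ⟨a, haS, haC⟩ := hall
        rw [Subgroup.relIndex, Subgroup.index_eq_two_iff]
        have hat : a * t.1 * a⁻¹ = t.1 * z.1 := by
          rcases htG a haS with h | h
          · exact absurd ((hCmem a).mpr ⟨haS, mul_inv_eq_iff_eq_mul.mp h⟩) haC
          · exact h
        refine ⟨⟨a, haS⟩, fun b => ?_⟩
        simp only [Subgroup.mem_subgroupOf, Subgroup.coe_mul]
        have hbz := hzcG b.1 b.2
        have hconj : b.1 * a * t.1 * (b.1 * a)⁻¹ = b.1 * t.1 * b.1⁻¹ * z.1 := by
          calc b.1 * a * t.1 * (b.1 * a)⁻¹ = b.1 * (a * t.1 * a⁻¹) * b.1⁻¹ := by group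
            _ = b.1 * (t.1 * z.1) * b.1⁻¹ := by rw [hat]
            _ = b.1 * t.1 * (z.1 * b.1⁻¹) := by group
            _ = b.1 * t.1 * (b.1⁻¹ * z.1) := by rw [hzcG b.1⁻¹ (S.inv_mem b.2)]
            _ = b.1 * t.1 * b.1⁻¹ * z.1 := by group
        have htzne : t.1 * z.1 ≠ t.1 := by
          intro h; exact ne_one_of_orderOf_two hzG2 (mul_eq_left.mp h)
        rcases htG b.1 b.2 with h | h
        · -- b ∈ C, b a ∉ C
          right
          refine ⟨(hCmem _).mpr ⟨b.2, mul_inv_eq_iff_eq_mul.mp h⟩, fun h' => htzne ?_⟩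
          have h3 := ((hCmem _).mp h').2
          have h4 : b.1 * a * t.1 * (b.1 * a)⁻¹ = t.1 := mul_inv_eq_iff_eq_mul.mpr h3
          rw [hconj, h] at h4
          exact h4
        · left
          refine ⟨(hCmem _).mpr ⟨S.mul_mem b.2 haS, ?_⟩, fun h' => htzne ?_⟩
          · apply mul_inv_eq_iff_eq_mul.mp
            rw [hconj, h, mul_assoc, hzzG, mul_one]
          · have h3 := ((hCmem _).mp h').2
            rw [← h]
            exact mul_inv_eq_iff_eq_mul.mpr h3
    have hidx := Subgroup.relIndex_mul_index hCS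
    rcases hrel with h | h
    · -- S ≤ C; x conjugate into S
      have hxp : IsPGroup 2 (Subgroup.zpowers x) := by
        refine IsPGroup.of_card (n := 1) ?_
        rw [Nat.card_zpowers, hx, pow_one]
      obtain ⟨k, -, hk⟩ := (isSylowIn_of_le S (K := ⊤) le_top).exists_conj_le hxp le_top
      apply hcon k
      apply Subgroup.relIndex_eq_one.mp h
      apply hk
      rw [mem_cj]
      have : k⁻¹ * (k * x * k⁻¹) * k = x := by group
      rw [this]; exact Subgroup.mem_zpowers x
    · have hC4 : C.index % 4 = 2 := by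
        rw [← hidx, h]; omega
      obtain ⟨H, hH, -⟩ := thompson_transfer C hC4 x hx hcon
      exact hno H hH
  obtain ⟨g, hg⟩ := hxC
  set y := g * x * g⁻¹ with hy
  have hy2 : orderOf y = 2 := by rw [hy, orderOf_conj', hx]
  have hyy := mul_self_of_orderOf_two hy2
  have hyC := (hCmem y).mp hg
  -- find e
  have hexe : ∃ e : G, e * e = 1 ∧ (∀ a ∈ V, a * e = e * a) ∧ e ∉ V ∧ (y ∈ V ∨ y = e) := by
    have hcomm : ∀ e : G, e ∈ C → ∀ a ∈ V, a * e = e * a := by
      intro e he a ha
      have h1 := (hCmem e).mp he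
      have hze := hzcG e h1.1
      rcases hVmem a ha with rfl | rfl | rfl | rfl
      · rw [one_mul, mul_one]
      · exact hze.symm
      · exact h1.2.symm
      · calc z.1 * t.1 * e = z.1 * (t.1 * e) := by group
          _ = z.1 * (e * t.1) := by rw [h1.2]
          _ = (z.1 * e) * t.1 := by group
          _ = e * z.1 * t.1 := by rw [hze]
          _ = e * (z.1 * t.1) := by group
    by_cases hyV : y ∈ V
    · -- find e in E ∩ C outside V
      by_cases hEC : E ≤ C
      · obtain ⟨e, he, heV⟩ := sq_mem_of_card_two_mul (x := z.1) (A := V) (by omega) hE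
        exact ⟨e, hE2 e he, hcomm e (hEC he), heV, Or.inl hyV⟩
      · -- E ⊓ C has index 2 in E
        by_contra hcon
        push Not at hcon
        have hECV : E ⊓ C ≤ V := by
          intro e he
          by_contra heV
          exact (hcon e (hE2 e he.1) (hcomm e he.2) heV).1 hyV
        rw [SetLike.not_le_iff_exists] at hEC
        obtain ⟨a, haE, haC⟩ := hEC
        have hat : a * t.1 * a⁻¹ = t.1 * z.1 := by
          rcases htG a (hES haE) with h | h
          · exact absurd ((hCmem a).mpr ⟨hES haE, mul_inv_eq_iff_eq_mul.mp h⟩) haC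
          · exact h
        -- card (E ⊓ C) ≥ 4
        have hcard : (E ⊓ C).relIndex E = 2 := by
          rw [Subgroup.relIndex, Subgroup.index_eq_two_iff]
          refine ⟨⟨a, haE⟩, fun b => ?_⟩
          simp only [Subgroup.mem_subgroupOf, Subgroup.coe_mul, Subgroup.mem_inf]
          have hbS := hES b.2
          have hconj : b.1 * a * t.1 * (b.1 * a)⁻¹ = b.1 * t.1 * b.1⁻¹ * z.1 := by
            calc b.1 * a * t.1 * (b.1 * a)⁻¹ = b.1 * (a * t.1 * a⁻¹) * b.1⁻¹ := by group
              _ = b.1 * (t.1 * z.1) * b.1⁻¹ := by rw [hat]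
              _ = b.1 * t.1 * (z.1 * b.1⁻¹) := by group
              _ = b.1 * t.1 * (b.1⁻¹ * z.1) := by rw [hzcG b.1⁻¹ (S.inv_mem hbS)]
              _ = b.1 * t.1 * b.1⁻¹ * z.1 := by group
          have htzne : t.1 * z.1 ≠ t.1 := by
            intro h; exact ne_one_of_orderOf_two hzG2 (mul_eq_left.mp h)
          rcases htG b.1 hbS with h | h
          · right
            refine ⟨⟨b.2, (hCmem _).mpr ⟨hbS, mul_inv_eq_iff_eq_mul.mp h⟩⟩, fun h' => htzne ?_⟩
            have h3 := ((hCmem _).mp h'.2).2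
            have h4 : b.1 * a * t.1 * (b.1 * a)⁻¹ = t.1 := mul_inv_eq_iff_eq_mul.mpr h3
            rw [hconj, h] at h4
            exact h4
          · left
            refine ⟨⟨E.mul_mem b.2 haE, (hCmem _).mpr ⟨S.mul_mem hbS (hES haE), ?_⟩⟩,
              fun h' => htzne ?_⟩
            · apply mul_inv_eq_iff_eq_mul.mp
              rw [hconj, h, mul_assoc, hzzG, mul_one]
            · have h3 := ((hCmem _).mp h'.2).2
              rw [← h]
              exact mul_inv_eq_iff_eq_mul.mpr h3
        have h4 : Nat.card (E ⊓ C : Subgroup G) = 4 := by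
          have h5 := Subgroup.relIndex_mul_relIndex ⊥ (E ⊓ C) E bot_le inf_le_left
          rw [Subgroup.relIndex_bot_left, Subgroup.relIndex_bot_left, hcard, hE] at h5
          omega
        have h5 : E ⊓ C = V := Subgroup.eq_of_le_of_card_ge hECV (by rw [h4, hV3'])
        have htE : t.1 ∈ E := by
          have : t.1 ∈ E ⊓ C := by rw [h5]; exact hV2
          exact this.1
        apply haC
        exact (hCmem a).mpr ⟨hES haE, hEcomm a haE _ htE⟩
    · exact ⟨y, hyy, hcomm y hg, hyV, Or.inr rfl⟩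
  obtain ⟨e, hee, hec, heV, hye⟩ := hexe
  obtain ⟨B, hB1, hB2, hB3, hB4, hB5⟩ := exists_extend V hV4 e hee hec heV
  have hyB : y ∈ B := by
    rcases hye with h | h
    · exact hB1 h
    · rw [h]; exact hB2
  have hBcomm : ∀ a ∈ B, a * y = y * a := by
    intro a ha
    have h1 := hB4 a ha
    have h3 := hB4 _ (B.mul_mem ha hyB)
    calc a * y = a * (a * y * (a * y)) * y := by rw [h3, mul_one]
      _ = (a * a) * (y * a) * (y * y) := by group
      _ = y * a := by rw [h1, hyy, one_mul, mul_one]
  refine ⟨cj g⁻¹ B, ?_, ?_, ?_⟩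
  · intro b hb
    rw [mem_cj, inv_inv] at hb
    rw [Subgroup.mem_centralizer_singleton_iff]
    have h1 := hBcomm _ hb
    rw [hy] at h1
    have h2 : g * (b * x) * g⁻¹ = g * (x * b) * g⁻¹ := by
      calc g * (b * x) * g⁻¹ = g * b * g⁻¹ * (g * x * g⁻¹) := by group
        _ = g * x * g⁻¹ * (g * b * g⁻¹) := h1
        _ = g * (x * b) * g⁻¹ := by group
    exact mul_left_cancel (mul_right_cancel h2)
  · rw [card_cj, hB3, hV3']
  · intro b hb
    rw [mem_cj, inv_inv] at hb
    have h1 := hB4 _ hb
    have h2 : g * (b * b) * g⁻¹ = 1 := by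
      calc g * (b * b) * g⁻¹ = g * b * g⁻¹ * (g * b * g⁻¹) := by group
        _ = 1 := h1
    rw [pow_two]
    exact conj_eq_one_iff.mp h2

end main

end Cfsg.Agent.H80
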