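import Cfsg.Agent.H80.J3OData

/-!
# Orbits of `3·J₃` on lines: the kernel computation (owner: helper80)
-/

set_option autoImplicit false
set_option maxRecDepth 1000000

namespace Cfsg.Agent.H80.J3O

/-- forcing -/
noncomputable def fc {α : Type} (n : ℕ) (f : ℕ → α) : α :=
  @Nat.rec (fun _ => α) (f 0) (fun m _ => f m) (Nat.add n 1)

theorem fc_eq {α : Type} (n : ℕ) (f : ℕ → α) : fc n f = f n := rfl

/-- image of the code `r` under the letter `x`, `o = 9216 * x` -/
noncomputable def mvT (o r : ℕ) : ℕ :=
  Nat.xor (Nat.land (Nat.shiftRight loT (Nat.add o (Nat.mul 18 (Nat.land r 511)))) 262143)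
    (Nat.land (Nat.shiftRight hiT (Nat.add o (Nat.mul 18 (Nat.shiftRight r 9)))) 262143)

/-- multiplication of a code by `ω` -/
noncomputable def om (v : ℕ) : ℕ :=
  fc (Nat.land (Nat.shiftRight v 1) 87381) fun b =>
    Nat.lor b (Nat.shiftLeft (Nat.xor (Nat.land v 87381) b) 1)

/-- minimum -/
noncomputable def mn (a b : ℕ) : ℕ := @Bool.rec (fun _ => ℕ) b a (Nat.ble a b)

/-- normalization -/
noncomputable def nrm (v : ℕ) : ℕ := fc (om v) fun w => mn (mn v w) (Nat.xor v w)

/-- the table as one number -/
noncomputable def big : ℕ :=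
  @List.rec ℕ (fun _ => ℕ → ℕ → ℕ) (fun _ acc => acc)
    (fun c _ ih s acc => fc (Nat.lor acc (Nat.shiftLeft c s)) fun acc' => fc (Nat.add s 32768) fun s' => ih s' acc')
    chunks 0 0

/-- entry of the table -/
noncomputable def ent (T v : ℕ) : ℕ := Nat.land (Nat.shiftRight T (Nat.mul 8 v)) 255

noncomputable def dist (e : ℕ) : ℕ := Nat.land (Nat.shiftRight e 3) 15
noncomputable def flag (e : ℕ) : ℕ := Nat.shiftRight e 7

noncomputable def sel (c a b : Bool) : Bool := @Bool.rec (fun _ => Bool) b a c

/-- the image of `v` under the letter `x` has a table entry with the flag `f` -/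
noncomputable def img (T v o f : ℕ) (k : ℕ → Bool) : Bool :=
  fc (mvT o v) fun u => fc (ent T (nrm u)) fun e =>
    sel (Nat.beq e 0) false (sel (Nat.beq (flag e) f) (k e) false)

/-- descent for the entry `e` of `v` -/
noncomputable def desc (T v e f : ℕ) : Bool :=
  fc (dist e) fun d => sel (Nat.beq d 0) (sel (Nat.beq f 1) (Nat.beq v 1) (Nat.beq v 5))
    (img T v (Nat.mul 9216 (Nat.land e 7)) f fun e' => Nat.ble (Nat.succ (dist e')) d)

/-- the test at `v`, `p` = (odd weight) -/
noncomputable def leaf (T v : ℕ) (p : Bool) : Bool :=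
  fc (ent T v) fun e => sel (Nat.beq e 0) p
    (sel p (sel (Nat.beq (flag e) 1) (sel (desc T v e 1)
        (sel (img T v 9216 1 fun _ => true) (sel (img T v 18432 1 fun _ => true) (sel (img T v 36864 1 fun _ => true)
          (sel (img T v 46080 1 fun _ => true) (img T v 55296 1 fun _ => true) false) false) false) false) false) false)
      (sel (Nat.beq (flag e) 0) (desc T v e 0) false))

/-- walk through all codes beginning with given digits -/
noncomputable def walk (lf : ℕ → Bool → Bool) (d : ℕ) : ℕ → Bool → Bool :=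
  @Nat.rec (fun _ => ℕ → Bool → Bool) (fun v p => lf v p)
    (fun _ ih v p => fc (Nat.mul 4 v) fun w => sel (ih w p)
      (fc (Nat.add w 1) fun w => sel (ih w (sel p false true))
        (fc (Nat.add w 1) fun w => sel (ih w (sel p false true))
          (fc (Nat.add w 1) fun w => ih w (sel p false true)) false) false) false) d

/-- the main check -/
noncomputable def main (k v : ℕ) (p : Bool) : Bool := fc big fun T => walk (leaf T) k v p

/-- count of the flags -/
noncomputable def cntW (T d : ℕ) : ℕ → ℕ :=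
  @Nat.rec (fun _ => ℕ → ℕ) (fun v => flag (ent T v))
    (fun _ ih v => fc (Nat.mul 4 v) fun w => fc (ih w) fun a => fc (ih (Nat.add w 1)) fun b =>
      fc (ih (Nat.add w 2)) fun c => fc (ih (Nat.add w 3)) fun d => Nat.add (Nat.add a b) (Nat.add c d)) d

noncomputable def total : ℕ := fc big fun T => @Nat.rec (fun _ => ℕ) 0 (fun k ih => fc ih fun a => Nat.add a (cntW T k 1)) 9

/-- check of the tables of the letters -/
noncomputable def chkT : Bool :=
  @List.rec ℕ (fun _ => Bool) true (fun x _ ih => sel ((List.range 512).all fun i =>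
      Nat.beq (Nat.land (Nat.shiftRight loT (Nat.add (Nat.mul 9216 x) (Nat.mul 18 i))) 262143)
        (Cfsg.Agent.J3M.rmul (tabsT.getD x []) i 0) &&
      Nat.beq (Nat.land (Nat.shiftRight hiT (Nat.add (Nat.mul 9216 x) (Nat.mul 18 i))) 262143)
        (Cfsg.Agent.J3M.rmul (tabsT.getD x []) (Nat.shiftLeft i 9) 0)) ih false) [1, 2, 3, 4, 5, 6]

end Cfsg.Agent.H80.J3O
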