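import Cfsg.Agent.H80.J3OCheck

/-!
# Orbits of `3·J₃` on lines: the kernel computation, results (owner: helper80)
-/

set_option autoImplicit false
set_option maxRecDepth 1000000

namespace Cfsg.Agent.H80.J3O

theorem chkT_ok : chkT = true := by decide +kernel
theorem total_eq : Nat.beq total 23256 = true := by decide +kernel
theorem main_0 : main 0 1 true = true := by decide +kernel
theorem main_1 : main 1 1 true = true := by decide +kernel
theorem main_2 : main 2 1 true = true := by decide +kernel
theorem main_3 : main 3 1 true = true := by decide +kernel
theorem main_4 : main 4 1 true = true := by decide +kernel
theorem main_5 : main 5 1 true = true := by decide +kernel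
theorem main_6 : main 6 1 true = true := by decide +kernel
theorem main_7 : main 7 1 true = true := by decide +kernel
theorem main_80 : main 7 4 true = true := by decide +kernel
theorem main_81 : main 7 5 false = true := by decide +kernel
theorem main_82 : main 7 6 false = true := by decide +kernel
theorem main_83 : main 7 7 false = true := by decide +kernel

end Cfsg.Agent.H80.J3O
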