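import Cfsg.Agent.H80.J3OSound

/-!
# Orbits of `3·J₃` on lines (owner: helper80)
-/

set_option autoImplicit false
set_option maxRecDepth 1000000

namespace Cfsg.Agent.H80.J3O

open Cfsg.Spor Cfsg.Agent.J3M Cfsg.Agent.CosetEnum
open scoped MatrixGroups

/-! ### Tables of the letters -/

theorem chkT_spec : ∀ x ∈ [1, 2, 3, 4, 5, 6], ∀ i < 512,
    (loT >>> (9216 * x + 18 * i)) &&& 262143 = rmul (tabsT.getD x []) i 0 ∧
      (hiT >>> (9216 * x + 18 * i)) &&& 262143 = rmul (tabsT.getD x []) (i <<< 9) 0 := by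
  have key : ∀ L : List ℕ, @List.rec ℕ (fun _ => Bool) true (fun x _ ih => sel ((List.range 512).all fun i =>
      Nat.beq (Nat.land (Nat.shiftRight loT (Nat.add (Nat.mul 9216 x) (Nat.mul 18 i))) 262143)
        (Cfsg.Agent.J3M.rmul (tabsT.getD x []) i 0) &&
      Nat.beq (Nat.land (Nat.shiftRight hiT (Nat.add (Nat.mul 9216 x) (Nat.mul 18 i))) 262143)
        (Cfsg.Agent.J3M.rmul (tabsT.getD x []) (Nat.shiftLeft i 9) 0)) ih false) L = true → ∀ x ∈ L, ∀ i < 512,
    (loT >>> (9216 * x + 18 * i)) &&& 262143 = rmul (tabsT.getD x []) i 0 ∧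
      (hiT >>> (9216 * x + 18 * i)) &&& 262143 = rmul (tabsT.getD x []) (i <<< 9) 0 := by
    intro L
    induction L with
    | nil => intro _ x hx; exact absurd hx (by simp)
    | cons a L ih =>
      intro hL x hx i hi
      change sel _ _ false = true at hL
      rw [sel_and] at hL
      rcases List.mem_cons.1 hx with rfl | hx
      · have h1 := List.all_eq_true.1 hL.1 i (List.mem_range.2 hi)
        rw [Bool.and_eq_true] at h1
        exact ⟨Nat.eq_of_beq_eq_true h1.1, Nat.eq_of_beq_eq_true h1.2⟩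
      · exact ih hL.2 x hx i hi
  exact key _ chkT_ok

theorem split_code (r : ℕ) : (r &&& 511) ^^^ ((r >>> 9) <<< 9) = r := by
  apply Nat.eq_of_testBit_eq
  intro j
  have h1 : (511 : ℕ) = 2 ^ 9 - 1 := by norm_num
  rw [Nat.testBit_xor, h1, Nat.and_two_pow_sub_one_eq_mod, Nat.testBit_mod_two_pow, Nat.testBit_shiftLeft,
    Nat.testBit_shiftRight]
  by_cases hj : j < 9
  · have : ¬ 9 ≤ j := by omega
    simp [hj, this]
  · have h2 : 9 ≤ j := by omega
    have h3 : 9 + (j - 9) = j := by omega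
    simp [hj, h2, h3]

def chkTr : Bool := [1, 2, 3, 4, 5, 6].all fun x => okT (tabsT.getD x []) && (List.range 9).all fun k =>
  (List.range 9).all fun i =>
    (((tabsT.getD x []).getD (2 * k) 0).testBit (2 * i) == ((tab x).getD (2 * i) 0).testBit (2 * k)) &&
    (((tabsT.getD x []).getD (2 * k) 0).testBit (2 * i + 1) == ((tab x).getD (2 * i) 0).testBit (2 * k + 1))

theorem chkTr_ok : chkTr = true := by decide +kernel

theorem mvT_lt (o r : ℕ) : mvT o r < 262144 := by
  have h1 : (262144 : ℕ) = 2 ^ 18 := by norm_num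
  have h2 : ∀ a : ℕ, a &&& 262143 < 2 ^ 18 := fun a => lt_of_le_of_lt Nat.and_le_right (by norm_num)
  rw [h1]
  exact Nat.xor_lt_two_pow (h2 _) (h2 _)

section

variable {F : Type*} [Field F] {ω : F} (h : Om ω)

/-- the vector of a code -/
def V (ω : F) (r : ℕ) : F9 → F := fun z => cv ω r (e9.symm z)

include h in
theorem mv_row {x : ℕ} (hx : isLet 6 x = true) {r : ℕ} (hr : r < 262144) :
    row ω (mvT (9216 * x) r) = (matT ω (tab x)).mulVec (row ω r) := by
  have h2 : x ∈ [1, 2, 3, 4, 5, 6] := by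
    rw [isLet_iff] at hx
    simp only [List.mem_cons, List.not_mem_nil, or_false]
    omega
  have h3 := chkTr_ok
  unfold chkTr at h3
  rw [List.all_eq_true] at h3
  have h4 := h3 x h2
  rw [Bool.and_eq_true] at h4
  have hTb := Tb.of_ok h.two h.om h4.1
  have ha : r &&& 511 < 512 := by
    exact lt_of_le_of_lt Nat.and_le_right (by norm_num)
  have hb : r >>> 9 < 512 := by
    rw [Nat.shiftRight_eq_div_pow]
    omega
  have e1 := (chkT_spec x h2 _ ha).1
  have e2 := (chkT_spec x h2 _ hb).2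
  have e3 : mvT (9216 * x) r = rmul (tabsT.getD x []) (r &&& 511) 0 ^^^ rmul (tabsT.getD x []) ((r >>> 9) <<< 9) 0 := by
    rw [← e1, ← e2]
    rfl
  have e4 : row ω (mvT (9216 * x) r) = row ω (rmul (tabsT.getD x []) (r &&& 511) 0) +
      row ω (rmul (tabsT.getD x []) ((r >>> 9) <<< 9) 0) := by
    funext i
    rw [e3]
    exact cv_xor ω h.two _ _ _
  rw [e4, hTb.row_rmul h.two, hTb.row_rmul h.two, ← Matrix.add_vecMul]
  have e5 : row ω (r &&& 511) + row ω ((r >>> 9) <<< 9) = row ω r := by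
    funext i
    have := cv_xor ω h.two (r &&& 511) ((r >>> 9) <<< 9) i
    rw [split_code] at this
    exact this.symm
  rw [e5]
  funext i
  change ∑ k, row ω r k * matT ω (tabsT.getD x []) k i = ∑ k, matT ω (tab x) i k * row ω r k
  apply Finset.sum_congr rfl
  intro k _
  rw [mul_comm]
  congr 1
  have h5 := List.all_eq_true.1 h4.2 k (List.mem_range.2 k.2)
  have h6 := List.all_eq_true.1 h5 i (List.mem_range.2 i.2)
  rw [Bool.and_eq_true, beq_iff_eq, beq_iff_eq] at h6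
  change cv ω ((tabsT.getD x []).getD (2 * (k : ℕ)) 0) i = cv ω ((tab x).getD (2 * (i : ℕ)) 0) k
  unfold cv
  rw [h6.1, h6.2]

theorem mulVec_tF (g : GL (Fin 9) F) (r : ℕ) :
    (tF g : Matrix F9 F9 F).mulVec (V ω r) = fun z => (g : Matrix (Fin 9) (Fin 9) F).mulVec (row ω r) (e9.symm z) := by
  funext w
  change ∑ z, (tF g : Matrix F9 F9 F) w z * V ω r z = ∑ k, (g : Matrix (Fin 9) (Fin 9) F) (e9.symm w) k * row ω r k
  rw [← Equiv.sum_comp e9.symm]
  rfl

include h in
theorem mv_V {x : ℕ} (hx : isLet 6 x = true) {r : ℕ} (hr : r < 262144) :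
    (tF (uL h x) : Matrix F9 F9 F).mulVec (V ω r) = V ω (mvT (9216 * x) r) := by
  rw [mulVec_tF, uL_coe h hx, ← mv_row h hx hr]
  rfl

include h in
theorem nrm_V (r : ℕ) : ∃ c : F, c ≠ 0 ∧ V ω (nrm r) = c • V ω r := by
  rcases nrm_cases r with h1 | h1 | h1
  · exact ⟨1, one_ne_zero, by rw [h1, one_smul]⟩
  · refine ⟨ω, h.ne_zero, ?_⟩
    rw [h1]
    funext z
    exact cv_om h r (e9.symm z).2
  · refine ⟨1 + ω, ?_, ?_⟩
    · have h5 : (1 + ω) = ω ^ 2 := by linear_combination (1 + ω) * h.two - h.om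
      rw [h5]
      exact pow_ne_zero _ h.ne_zero
    · rw [h1]
      funext z
      change cv ω (r ^^^ om r) _ = (1 + ω) * cv ω r _
      rw [cv_xor ω h.two, cv_om h r (e9.symm z).2]
      ring

include h in
theorem V_inj {r s : ℕ} (hr : r < 262144) (hs : s < 262144) (hV : V ω r = V ω s) : r = s := by
  have key : ∀ i < 9, r.testBit (2 * i) = s.testBit (2 * i) ∧ r.testBit (2 * i + 1) = s.testBit (2 * i + 1) := by
    intro i hi
    have h1 := congrFun hV (e9 ⟨i, hi⟩)
    change cv ω r (e9.symm (e9 ⟨i, hi⟩)) = cv ω s (e9.symm (e9 ⟨i, hi⟩)) at h1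
    rw [Equiv.symm_apply_apply] at h1
    change cv ω r i = cv ω s i at h1
    unfold cv at h1
    have n0 := h.ne_zero
    have n1 := h.ne_one
    have n2 : 1 + ω ≠ 0 := by
      have h5 : (1 + ω) = ω ^ 2 := by linear_combination (1 + ω) * h.two - h.om
      rw [h5]; exact pow_ne_zero _ n0
    revert h1
    cases r.testBit (2 * i) <;> cases r.testBit (2 * i + 1) <;> cases s.testBit (2 * i) <;>
      cases s.testBit (2 * i + 1) <;> simp_all <;> intro h9
    all_goals first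
      | exact absurd h9.symm n0
      | exact absurd h9 n0
      | exact absurd h9 n1
      | exact absurd h9.symm n1
      | exact absurd h9 n2
      | exact absurd h9.symm n2
  apply Nat.eq_of_testBit_eq
  intro j
  rcases Nat.lt_or_ge j 18 with hj | hj
  · obtain ⟨i, hi | hi⟩ : ∃ i, j = 2 * i ∨ j = 2 * i + 1 := ⟨j / 2, by omega⟩
    · rw [hi]; exact (key i (by omega)).1
    · rw [hi]; exact (key i (by omega)).2
  · have e : (262144 : ℕ) = 2 ^ 18 := by norm_num
    rw [e] at hr hs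
    rw [Nat.testBit_lt_two_pow (lt_of_lt_of_le hr (Nat.pow_le_pow_right (by norm_num) hj)),
      Nat.testBit_lt_two_pow (lt_of_lt_of_le hs (Nat.pow_le_pow_right (by norm_num) hj))]

theorem V_zero : V ω 0 = 0 := by
  funext z
  exact cv_zero ω _

include h in
theorem mvT_ne {x : ℕ} (hx : isLet 6 x = true) {r : ℕ} (hr : r < 262144) (h0 : r ≠ 0) : mvT (9216 * x) r ≠ 0 := by
  intro h1
  apply h0
  apply V_inj h hr (by norm_num)
  have h2 := mv_V h hx hr
  rw [h1, V_zero] at h2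
  rw [V_zero]
  have h3 : ((tF (uL h x))⁻¹ : GL F9 F).1.mulVec ((tF (uL h x) : Matrix F9 F9 F).mulVec (V ω r)) = V ω r := by
    rw [Matrix.mulVec_mulVec, ← Units.val_mul, inv_mul_cancel, Units.val_one, Matrix.one_mulVec]
  rw [← h3, h2, Matrix.mulVec_zero]

theorem Norm.ne {v : ℕ} (hv : Norm v) : v ≠ 0 := by
  obtain ⟨k, -, h1, -⟩ := hv
  have : 0 < 4 ^ k := by positivity
  omega

/-! ### The checks at a code -/

theorem img_spec {T v o f : ℕ} {k : ℕ → Bool} (hi : img T v o f k = true) :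
    ent T (nrm (mvT o v)) ≠ 0 ∧ flag (ent T (nrm (mvT o v))) = f ∧ k (ent T (nrm (mvT o v))) = true := by
  have h1 : sel (Nat.beq (ent T (nrm (mvT o v))) 0) false
      (sel (Nat.beq (flag (ent T (nrm (mvT o v)))) f) (k (ent T (nrm (mvT o v)))) false) = true := hi
  rw [sel_iff] at h1
  rcases h1 with ⟨-, h2⟩ | ⟨h2, h3⟩
  · exact absurd h2 (by simp)
  · rw [sel_and] at h3
    refine ⟨?_, Nat.eq_of_beq_eq_true h3.1, h3.2⟩
    intro h4
    rw [h4] at h2
    exact absurd h2 (by decide)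

theorem ent0 : ent big 0 = 0 := by
  have h1 : Nat.beq (ent big 0) 0 = true := by decide +kernel
  exact Nat.eq_of_beq_eq_true h1

theorem lo0 : (List.range 512).all (fun i => Nat.beq (Nat.land (Nat.shiftRight loT (Nat.mul 18 i)) 262143) 0 &&
    Nat.beq (Nat.land (Nat.shiftRight hiT (Nat.mul 18 i)) 262143) 0) = true := by decide +kernel

theorem lo7 : Nat.beq (Nat.shiftRight loT 64512) 0 = true ∧ Nat.beq (Nat.shiftRight hiT 64512) 0 = true := by
  decide +kernel

theorem mvT_bad0 {r : ℕ} (hr : r < 262144) : mvT (9216 * 0) r = 0 := by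
  have ha : r &&& 511 < 512 := lt_of_le_of_lt Nat.and_le_right (by norm_num)
  have hb : r >>> 9 < 512 := by rw [Nat.shiftRight_eq_div_pow]; omega
  have h1 := List.all_eq_true.1 lo0 _ (List.mem_range.2 ha)
  have h2 := List.all_eq_true.1 lo0 _ (List.mem_range.2 hb)
  rw [Bool.and_eq_true] at h1 h2
  have h3 : (loT >>> (18 * (r &&& 511))) &&& 262143 = 0 := Nat.eq_of_beq_eq_true h1.1
  have h4 : (hiT >>> (18 * (r >>> 9))) &&& 262143 = 0 := Nat.eq_of_beq_eq_true h2.2
  have h5 : mvT (9216 * 0) r = ((loT >>> (9216 * 0 + 18 * (r &&& 511))) &&& 262143) ^^^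
    ((hiT >>> (9216 * 0 + 18 * (r >>> 9))) &&& 262143) := rfl
  rw [h5, Nat.mul_zero, Nat.zero_add, Nat.zero_add, h3, h4]
  rfl

theorem mvT_bad7 (r : ℕ) : mvT (9216 * 7) r = 0 := by
  have h3 : loT >>> 64512 = 0 := Nat.eq_of_beq_eq_true lo7.1
  have h4 : hiT >>> 64512 = 0 := Nat.eq_of_beq_eq_true lo7.2
  have h5 : mvT (9216 * 7) r = ((loT >>> (9216 * 7 + 18 * (r &&& 511))) &&& 262143) ^^^
    ((hiT >>> (9216 * 7 + 18 * (r >>> 9))) &&& 262143) := rfl
  rw [h5, show 9216 * 7 = 64512 by norm_num, Nat.shiftRight_add, Nat.shiftRight_add, h3, h4, Nat.zero_shiftRight,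
    Nat.zero_shiftRight]
  rfl

theorem nrm_zero : nrm 0 = 0 := by
  have h1 : Nat.beq (nrm 0) 0 = true := by decide +kernel
  exact Nat.eq_of_beq_eq_true h1

theorem desc_spec {T v e f : ℕ} (hd : desc T v e f = true) :
    (dist e = 0 ∧ (f = 1 ∧ v = 1 ∨ f ≠ 1 ∧ v = 5)) ∨ (dist e ≠ 0 ∧ img T v (9216 * (e &&& 7)) f
      (fun e' => Nat.ble (Nat.succ (dist e')) (dist e)) = true) := by
  have h1 : sel (Nat.beq (dist e) 0) (sel (Nat.beq f 1) (Nat.beq v 1) (Nat.beq v 5))
    (img T v (9216 * (e &&& 7)) f fun e' => Nat.ble (Nat.succ (dist e')) (dist e)) = true := hd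
  rw [sel_iff, sel_iff] at h1
  rcases h1 with ⟨h2, h3⟩ | ⟨h2, h3⟩
  · left
    refine ⟨Nat.eq_of_beq_eq_true h2, ?_⟩
    rcases h3 with ⟨h4, h5⟩ | ⟨h4, h5⟩
    · exact Or.inl ⟨Nat.eq_of_beq_eq_true h4, Nat.eq_of_beq_eq_true h5⟩
    · refine Or.inr ⟨?_, Nat.eq_of_beq_eq_true h5⟩
      rintro rfl
      exact absurd h4 (by decide)
  · right
    refine ⟨?_, h3⟩
    intro h4
    rw [h4] at h2
    exact absurd h2 (by decide)

theorem leaf_cases {T v : ℕ} {q : Bool} (hl : leaf T v q = true) :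
    (ent T v = 0 ∧ q = true) ∨ (ent T v ≠ 0 ∧ q = true ∧ flag (ent T v) = 1 ∧ desc T v (ent T v) 1 = true ∧
      ∀ x ∈ [1, 2, 4, 5, 6], img T v (9216 * x) 1 (fun _ => true) = true) ∨
    (ent T v ≠ 0 ∧ q = false ∧ flag (ent T v) = 0 ∧ desc T v (ent T v) 0 = true) := by
  have h1 : sel (Nat.beq (ent T v) 0) q
    (sel q (sel (Nat.beq (flag (ent T v)) 1) (sel (desc T v (ent T v) 1)
        (sel (img T v 9216 1 fun _ => true) (sel (img T v 18432 1 fun _ => true) (sel (img T v 36864 1 fun _ => true)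
          (sel (img T v 46080 1 fun _ => true) (img T v 55296 1 fun _ => true) false) false) false) false) false) false)
      (sel (Nat.beq (flag (ent T v)) 0) (desc T v (ent T v) 0) false)) = true := hl
  generalize ent T v = e at h1 ⊢
  rw [sel_iff] at h1
  rcases h1 with ⟨h2, h3⟩ | ⟨h2, h3⟩
  · exact Or.inl ⟨Nat.eq_of_beq_eq_true h2, h3⟩
  · have he : e ≠ 0 := by
      rintro rfl
      exact absurd h2 (by decide)
    rw [sel_iff] at h3
    rcases h3 with ⟨h4, h5⟩ | ⟨h4, h5⟩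
    · rw [sel_and, sel_and, sel_and, sel_and, sel_and, sel_and] at h5
      obtain ⟨h6, h7, h8, h9, h10, h11, h12⟩ := h5
      refine Or.inr (Or.inl ⟨he, h4, Nat.eq_of_beq_eq_true h6, h7, ?_⟩)
      intro x hx
      simp only [List.mem_cons, List.not_mem_nil, or_false] at hx
      rcases hx with rfl | rfl | rfl | rfl | rfl
      · exact h8
      · exact h9
      · exact h10
      · exact h11
      · exact h12
    · rw [sel_and] at h5
      exact Or.inr (Or.inr ⟨he, h4, Nat.eq_of_beq_eq_true h5.1, h5.2⟩)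

include h in
/-- Every code of the table can be moved to the root. -/
theorem reach {T : ℕ} (hT : T = big) : ∀ d v, Norm v → ent T v ≠ 0 → dist (ent T v) ≤ d →
    ∃ g ∈ threeJ3 F ω, ∃ c : F, c ≠ 0 ∧ (g : Matrix F9 F9 F).mulVec (V ω v) =
      c • V ω (if flag (ent T v) = 1 then 1 else 5) := by
  intro d
  induction d using Nat.strong_induction_on with
  | _ d ih =>
  intro v hv he hd
  obtain ⟨q, hl, -⟩ := leaf_spec h hT hv
  have hdesc : ∃ f, flag (ent T v) = f ∧ desc T v (ent T v) f = true ∧ (f = 1 ∨ f = 0) := by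
    rcases leaf_cases hl with h1 | h1 | h1
    · exact absurd h1.1 he
    · exact ⟨1, h1.2.2.1, h1.2.2.2.1, Or.inl rfl⟩
    · exact ⟨0, h1.2.2.1, h1.2.2.2, Or.inr rfl⟩
  obtain ⟨f, hf, hdf, hf01⟩ := hdesc
  rw [hf]
  rcases desc_spec hdf with ⟨h1, h2⟩ | ⟨h1, h2⟩
  · refine ⟨1, Subgroup.one_mem _, 1, one_ne_zero, ?_⟩
    rw [Units.val_one, Matrix.one_mulVec, one_smul]
    rcases h2 with ⟨h3, h4⟩ | ⟨h3, h4⟩
    · rw [if_pos h3, h4]
    · rw [if_neg h3, h4]
  · have h3 := img_spec h2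
    obtain ⟨h4, h5, h6⟩ := h3
    have h6 := Nat.le_of_ble_eq_true h6
    have hx : isLet 6 (ent T v &&& 7) = true := by
      rw [isLet_iff]
      have h7 : ent T v &&& 7 < 8 := lt_of_le_of_lt Nat.and_le_right (by norm_num)
      by_contra hc
      have h8 : ent T v &&& 7 = 0 ∨ ent T v &&& 7 = 7 := by omega
      apply h4
      rcases h8 with h8 | h8
      · rw [h8, mvT_bad0 hv.lt, nrm_zero, hT, ent0]
      · rw [h8, mvT_bad7, nrm_zero, hT, ent0]
    have hne := mvT_ne h hx hv.lt hv.ne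
    have hw := nrm_norm (mvT_lt _ _) hne
    obtain ⟨g, hg, c, hc, hgc⟩ := ih (dist (ent T (nrm (mvT (9216 * (ent T v &&& 7)) v))))
      (by omega) _ hw h4 le_rfl
    obtain ⟨c', hc', hn⟩ := nrm_V h (mvT (9216 * (ent T v &&& 7)) v)
    refine ⟨g * tF (uL h (ent T v &&& 7)), Subgroup.mul_mem _ hg (tF_mem h _), c'⁻¹ * c,
      mul_ne_zero (inv_ne_zero hc') hc, ?_⟩
    rw [Units.val_mul, ← Matrix.mulVec_mulVec, mv_V h hx hv.lt]
    rw [h5, hn, Matrix.mulVec_smul] at hgc
    rw [mul_smul, ← hgc, smul_smul, inv_mul_cancel₀ hc', one_smul]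

/-- the codes of the orbit of the first basis vector -/
def XS (T : ℕ) : Set ℕ := {v | Norm v ∧ flag (ent T v) = 1}

theorem flag_ne {e : ℕ} (h : flag e = 1) : e ≠ 0 := by
  rintro rfl
  have : flag 0 = 0 := rfl
  rw [this] at h
  exact absurd h (by norm_num)

/-- `g` permutes the lines of the orbit -/
def Pres (T : ℕ) (ω : F) (g : GL F9 F) : Prop := ∀ v ∈ XS T, ∃ v' ∈ XS T, ∃ c : F, c ≠ 0 ∧
  (g : Matrix F9 F9 F).mulVec (V ω v) = c • V ω v'

theorem pres_one (T : ℕ) : Pres T ω (1 : GL F9 F) := fun v hv =>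
  ⟨v, hv, 1, one_ne_zero, by rw [Units.val_one, Matrix.one_mulVec, one_smul]⟩

theorem pres_mul {T : ℕ} {g k : GL F9 F} (hg : Pres T ω g) (hk : Pres T ω k) : Pres T ω (g * k) := by
  intro v hv
  obtain ⟨v', hv', c, hc, h1⟩ := hk v hv
  obtain ⟨w, hw, c', hc', h2⟩ := hg v' hv'
  refine ⟨w, hw, c * c', mul_ne_zero hc hc', ?_⟩
  rw [Units.val_mul, ← Matrix.mulVec_mulVec, h1, Matrix.mulVec_smul, h2, smul_smul]

theorem pres_inv [Finite F] {T : ℕ} {g : GL F9 F} (hg : Pres T ω g) : Pres T ω g⁻¹ := by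
  have h1 : ∀ n : ℕ, Pres T ω (g ^ n) := by
    intro n
    induction n with
    | zero => rw [pow_zero]; exact pres_one T
    | succ n ih => rw [pow_succ]; exact pres_mul ih hg
  have h2 : g⁻¹ = g ^ (orderOf g - 1) := by
    rw [inv_eq_iff_mul_eq_one, ← pow_succ', Nat.sub_add_cancel (orderOf_pos g), pow_orderOf_eq_one]
  rw [h2]
  exact h1 _

include h in
theorem pres_letter {T : ℕ} (hT : T = big) {x : ℕ} (hx : x ∈ [1, 2, 4, 5, 6]) : Pres T ω (tF (uL h x)) := by
  intro v hv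
  obtain ⟨hv, hfv⟩ := hv
  have hx' : isLet 6 x = true := by
    rw [isLet_iff]
    simp only [List.mem_cons, List.not_mem_nil, or_false] at hx
    omega
  obtain ⟨q, hl, -⟩ := leaf_spec h hT hv
  rcases leaf_cases hl with h1 | h1 | h1
  · exact absurd h1.1 (flag_ne hfv)
  · obtain ⟨h2, h3, -⟩ := img_spec (h1.2.2.2.2 x hx)
    have hne := mvT_ne h hx' hv.lt hv.ne
    have hw := nrm_norm (mvT_lt _ _) hne
    obtain ⟨c', hc', hn⟩ := nrm_V h (mvT (9216 * x) v)
    refine ⟨nrm (mvT (9216 * x) v), ⟨hw, h3⟩, c'⁻¹, inv_ne_zero hc', ?_⟩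
    rw [mv_V h hx' hv.lt, hn, smul_smul, inv_mul_cancel₀ hc', one_smul]
  · rw [h1.2.2.1] at hfv
    exact absurd hfv (by norm_num)

include h in
theorem pres_all [Finite F] {T : ℕ} (hT : T = big) {g : GL F9 F} (hg : g ∈ threeJ3 F ω) : Pres T ω g := by
  rw [threeJ3_eq h] at hg
  obtain ⟨k, hk, rfl⟩ := hg
  change Pres T ω (tF k)
  unfold Cl at hk
  induction hk using Subgroup.closure_induction with
  | mem x hx =>
    obtain ⟨y, hy, rfl⟩ := hx
    have hy : isLet 6 y = true := hy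
    rw [isLet_iff] at hy
    by_cases h3 : y = 3
    · subst h3
      have h1 : uL h 3 = (uL h 2)⁻¹ := (uL_good h).inv 2
      rw [h1, map_inv]
      exact pres_inv (pres_letter h hT (by simp))
    · apply pres_letter h hT
      simp only [List.mem_cons, List.not_mem_nil, or_false]
      omega
  | one => rw [map_one]; exact pres_one T
  | mul x y _ _ hx hy => rw [map_mul]; exact pres_mul hx hy
  | inv x _ hx => rw [map_inv]; exact pres_inv hx

end

end Cfsg.Agent.H80.J3O
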