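import Cfsg.Agent.H80.J3OMain

/-!
# Orbits of `3·J₃` on lines: soundness (owner: helper80)
-/

set_option autoImplicit false
set_option maxRecDepth 1000000

namespace Cfsg.Agent.H80.J3O

open Cfsg.Spor Cfsg.Agent.J3M Cfsg.Agent.CosetEnum
open scoped MatrixGroups

theorem sel_iff {c a b : Bool} : sel c a b = true ↔ (c = true ∧ a = true) ∨ (c = false ∧ b = true) := by
  cases c <;> cases a <;> cases b <;> simp [sel]

theorem sel_and {c a : Bool} : sel c a false = true ↔ c = true ∧ a = true := by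
  cases c <;> cases a <;> simp [sel]

theorem walk_succ {lf : ℕ → Bool → Bool} {d v : ℕ} {p : Bool} :
    walk lf (d + 1) v p = true ↔ walk lf d (4 * v) p = true ∧ walk lf d (4 * v + 1) (!p) = true ∧
      walk lf d (4 * v + 2) (!p) = true ∧ walk lf d (4 * v + 3) (!p) = true := by
  have h : walk lf (d + 1) v p = sel (walk lf d (4 * v) p) (sel (walk lf d (4 * v + 1) (sel p false true))
    (sel (walk lf d (4 * v + 1 + 1) (sel p false true)) (walk lf d (4 * v + 1 + 1 + 1) (sel p false true)) false)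
      false) false := rfl
  rw [h, sel_and, sel_and, sel_and]
  have h2 : sel p false true = !p := by cases p <;> rfl
  rw [h2]

section

variable {F : Type*} [Field F] {ω : F} (h : Om ω)

theorem tb_mul4 (v c i : ℕ) (hc : c < 4) : (4 * v + c).testBit (2 * (i + 1)) = v.testBit (2 * i) ∧
    (4 * v + c).testBit (2 * (i + 1) + 1) = v.testBit (2 * i + 1) := by
  have h1 : ∀ j, (4 * v + c).testBit (j + 2) = v.testBit j := by
    intro j
    rw [show j + 2 = (j + 1) + 1 from rfl, Nat.testBit_succ, Nat.testBit_succ]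
    congr 1
    omega
  exact ⟨h1 (2 * i), h1 (2 * i + 1)⟩

theorem cv_mul4 (v c i : ℕ) (hc : c < 4) : cv ω (4 * v + c) (i + 1) = cv ω v i := by
  unfold cv
  rw [(tb_mul4 v c i hc).1, (tb_mul4 v c i hc).2]

/-- the sum of cubes -/
noncomputable def cub (ω : F) (n v : ℕ) : F := ∑ i ∈ Finset.range n, cv ω v i ^ 3

theorem cub_succ (n v c : ℕ) (hc : c < 4) : cub ω (n + 1) (4 * v + c) = cub ω n v + cv ω (4 * v + c) 0 ^ 3 := by
  unfold cub
  rw [Finset.sum_range_succ']
  congr 1
  apply Finset.sum_congr rfl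
  intro i _
  rw [cv_mul4 v c i hc]

theorem cv_dig0 (v : ℕ) : cv ω (4 * v) 0 = 0 := by
  have h1 : (4 * v).testBit 0 = false := by simp [Nat.testBit_zero]; omega
  have h2 : (4 * v).testBit 1 = false := by rw [Nat.testBit_succ, Nat.testBit_zero]; simp; omega
  unfold cv
  rw [Nat.mul_zero, h1, h2]; simp

theorem cv_dig1 (v : ℕ) : cv ω (4 * v + 1) 0 = 1 := by
  have h1 : (4 * v + 1).testBit 0 = true := by simp [Nat.testBit_zero]; omega
  have h2 : (4 * v + 1).testBit 1 = false := by rw [Nat.testBit_succ, Nat.testBit_zero]; simp; omega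
  unfold cv
  rw [Nat.mul_zero, h1, h2]; simp

theorem cv_dig2 (v : ℕ) : cv ω (4 * v + 2) 0 = ω := by
  have h1 : (4 * v + 2).testBit 0 = false := by simp [Nat.testBit_zero]; omega
  have h2 : (4 * v + 2).testBit 1 = true := by rw [Nat.testBit_succ, Nat.testBit_zero]; simp; omega
  unfold cv
  rw [Nat.mul_zero, h1, h2]; simp

theorem cv_dig3 (v : ℕ) : cv ω (4 * v + 3) 0 = 1 + ω := by
  have h1 : (4 * v + 3).testBit 0 = true := by simp [Nat.testBit_zero]; omega
  have h2 : (4 * v + 3).testBit 1 = true := by rw [Nat.testBit_succ, Nat.testBit_zero]; simp; omega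
  unfold cv
  rw [Nat.mul_zero, h1, h2]; simp

/-- the flag `q` is the norm of `v` -/
def Par (ω : F) (n v : ℕ) (q : Bool) : Prop := (if q = true then (1 : F) else 0) = cub ω n v

include h in
theorem par_step {n v : ℕ} {p : Bool} (hp : Par ω n v p) : Par ω (n + 1) (4 * v) p ∧ Par ω (n + 1) (4 * v + 1) (!p) ∧
    Par ω (n + 1) (4 * v + 2) (!p) ∧ Par ω (n + 1) (4 * v + 3) (!p) := by
  unfold Par at *
  have hnp : (if (!p) = true then (1 : F) else 0) = (if p = true then 1 else 0) + 1 := by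
    cases p
    · simp
    · simp [h.two]
  have h0 := cub_succ (ω := ω) n v 0 (by norm_num)
  rw [add_zero, cv_dig0] at h0
  refine ⟨?_, ?_, ?_, ?_⟩
  · rw [h0, ← hp]; simp
  · rw [hnp, cub_succ n v 1 (by norm_num), cv_dig1, ← hp, one_pow]
  · rw [hnp, cub_succ n v 2 (by norm_num), cv_dig2, ← hp, h.cube]
  · rw [hnp, cub_succ n v 3 (by norm_num), cv_dig3, ← hp]
    congr 1
    have h5 : (1 + ω) = ω ^ 2 := by linear_combination (1 + ω) * h.two - h.om
    rw [h5, ← pow_mul, mul_comm, pow_mul, h.cube, one_pow]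

include h in
theorem walk_spec {lf : ℕ → Bool → Bool} : ∀ d v p n, walk lf d v p = true → Par ω n v p → ∀ u < 4 ^ d,
    ∃ q, lf (v * 4 ^ d + u) q = true ∧ Par ω (n + d) (v * 4 ^ d + u) q := by
  intro d
  induction d with
  | zero =>
    intro v p n hw hp u hu
    have : u = 0 := by simpa using hu
    subst this
    have hw' : lf v p = true := hw
    refine ⟨p, ?_, ?_⟩
    · simpa using hw'
    · simpa using hp
  | succ d ih =>
    intro v p n hw hp u hu
    rw [walk_succ] at hw
    obtain ⟨w0, w1, w2, w3⟩ := hw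
    obtain ⟨p0, p1, p2, p3⟩ := par_step h hp
    have hu' : u / 4 ^ d < 4 := by
      rw [Nat.div_lt_iff_lt_mul (by positivity), mul_comm, ← pow_succ]; exact hu
    have hm : u % 4 ^ d < 4 ^ d := Nat.mod_lt _ (by positivity)
    have hdm := Nat.div_add_mod u (4 ^ d)
    have e : ∀ c, u / 4 ^ d = c → (4 * v + c) * 4 ^ d + u % 4 ^ d = v * 4 ^ (d + 1) + u := by
      intro c hc
      rw [hc] at hdm
      rw [pow_succ]
      nlinarith
    have key : ∀ c p', u / 4 ^ d = c → walk lf d (4 * v + c) p' = true → Par ω (n + 1) (4 * v + c) p' →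
        ∃ q, lf (v * 4 ^ (d + 1) + u) q = true ∧ Par ω (n + (d + 1)) (v * 4 ^ (d + 1) + u) q := by
      intro c p' hc hw' hp'
      obtain ⟨q, h1, h2⟩ := ih _ _ _ hw' hp' _ hm
      rw [e c hc] at h1 h2
      refine ⟨q, h1, ?_⟩
      rw [show n + (d + 1) = n + 1 + d by omega]; exact h2
    obtain ⟨c, hc⟩ : ∃ c, u / 4 ^ d = c := ⟨_, rfl⟩
    rw [hc] at hu'
    interval_cases c
    · exact key 0 _ hc w0 p0
    · exact key 1 _ hc w1 p1
    · exact key 2 _ hc w2 p2
    · exact key 3 _ hc w3 p3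

/-- normalized codes -/
def Norm (v : ℕ) : Prop := ∃ k < 9, 4 ^ k ≤ v ∧ v < 2 * 4 ^ k

theorem Norm.lt {v : ℕ} (hv : Norm v) : v < 262144 := by
  obtain ⟨k, hk, -, h2⟩ := hv
  have : (4 : ℕ) ^ k ≤ 4 ^ 8 := Nat.pow_le_pow_right (by norm_num) (by omega)
  norm_num at this
  omega

theorem cv_big {v k i : ℕ} (hv : v < 4 ^ k) (hi : k ≤ i) : cv ω v i = 0 := by
  have h4 : (4 : ℕ) ^ k = 2 ^ (2 * k) := by rw [pow_mul]; norm_num
  rw [h4] at hv
  unfold cv
  rw [Nat.testBit_lt_two_pow (lt_of_lt_of_le hv (Nat.pow_le_pow_right (by norm_num) (by omega))),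
    Nat.testBit_lt_two_pow (lt_of_lt_of_le hv (Nat.pow_le_pow_right (by norm_num) (by omega)))]
  simp

theorem cub_ext {v k : ℕ} (hk : k ≤ 9) (hv : v < 4 ^ k) : cub ω 9 v = cub ω k v := by
  unfold cub
  symm
  apply Finset.sum_subset (Finset.range_mono hk)
  intro i _ hi
  rw [cv_big hv (by simpa using hi)]
  simp

end

theorem main_eq (k v : ℕ) (p : Bool) : main k v p = walk (leaf big) k v p :=
  fc_eq big (fun T => walk (leaf T) k v p)

theorem walk_all (T : ℕ) (hT : T = big) : ∀ k < 9, walk (leaf T) k 1 true = true := by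
  have h8 : walk (leaf T) 8 1 true = true := by
    rw [walk_succ, hT]
    exact ⟨(main_eq _ _ _).symm.trans main_80, (main_eq _ _ _).symm.trans main_81,
      (main_eq _ _ _).symm.trans main_82, (main_eq _ _ _).symm.trans main_83⟩
  intro k hk
  interval_cases k
  · rw [hT]; exact (main_eq _ _ _).symm.trans main_0
  · rw [hT]; exact (main_eq _ _ _).symm.trans main_1
  · rw [hT]; exact (main_eq _ _ _).symm.trans main_2
  · rw [hT]; exact (main_eq _ _ _).symm.trans main_3
  · rw [hT]; exact (main_eq _ _ _).symm.trans main_4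
  · rw [hT]; exact (main_eq _ _ _).symm.trans main_5
  · rw [hT]; exact (main_eq _ _ _).symm.trans main_6
  · rw [hT]; exact (main_eq _ _ _).symm.trans main_7
  · exact h8

theorem leaf_spec {F : Type*} [Field F] {ω : F} (h : Om ω) {T : ℕ} (hT : T = big) {v : ℕ} (hv : Norm v) :
    ∃ q, leaf T v q = true ∧ Par ω 9 v q := by
  obtain ⟨k, hk, h1, h2⟩ := hv
  have hp : Par ω 1 1 true := by
    unfold Par cub
    have t1 : Nat.testBit 1 1 = false := by decide
    simp [cv, t1]
  obtain ⟨q, h3, h4⟩ := walk_spec h k 1 true 1 (walk_all T hT k hk) hp (v - 4 ^ k) (by omega)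
  have e : 1 * 4 ^ k + (v - 4 ^ k) = v := by omega
  rw [e] at h3 h4
  refine ⟨q, h3, ?_⟩
  unfold Par at *
  rw [h4, cub_ext (k := 1 + k) (by omega) (by rw [pow_add]; omega)]

/-! ### Multiplication by `ω` and normalization -/

theorem om_eq (v : ℕ) : om v = (v >>> 1 &&& 87381) ||| (((v &&& 87381) ^^^ (v >>> 1 &&& 87381)) <<< 1) := rfl

theorem mask_bit : ∀ j < 20, (87381 : ℕ).testBit j = (decide (j % 2 = 0) && decide (j < 18)) := by decide

theorem om_lt (v : ℕ) : om v < 262144 := by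
  rw [om_eq]
  have h1 : v >>> 1 &&& 87381 < 2 ^ 17 := lt_of_le_of_lt Nat.and_le_right (by norm_num)
  have h2 : v &&& 87381 < 2 ^ 17 := lt_of_le_of_lt Nat.and_le_right (by norm_num)
  have h3 := Nat.xor_lt_two_pow h2 h1
  have h4 : ((v &&& 87381) ^^^ (v >>> 1 &&& 87381)) <<< 1 < 2 ^ 18 := by
    rw [Nat.shiftLeft_eq]; omega
  exact Nat.or_lt_two_pow (lt_trans h1 (by norm_num)) h4

theorem om_bits (v : ℕ) {i : ℕ} (hi : i < 9) : (om v).testBit (2 * i) = v.testBit (2 * i + 1) ∧
    (om v).testBit (2 * i + 1) = xor (v.testBit (2 * i)) (v.testBit (2 * i + 1)) := by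
  rw [om_eq]
  have m0 := mask_bit (2 * i) (by omega)
  have m1 := mask_bit (2 * i + 1) (by omega)
  have e0 : (2 * i) % 2 = 0 := by omega
  have e1 : ¬ (2 * i + 1) % 2 = 0 := by omega
  have e2 : 2 * i < 18 := by omega
  simp only [e0, e1, e2, decide_true, decide_false, Bool.true_and, Bool.false_and] at m0 m1
  constructor
  · rw [Nat.testBit_or, Nat.testBit_and, m0, Nat.testBit_shiftRight, Nat.testBit_shiftLeft, Bool.and_true, add_comm 1]
    rcases Nat.eq_zero_or_pos i with rfl | hpos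
    · simp
    · have e3 : 2 * i - 1 = 2 * (i - 1) + 1 := by omega
      have m2 := mask_bit (2 * (i - 1) + 1) (by omega)
      have e4 : ¬ (2 * (i - 1) + 1) % 2 = 0 := by omega
      simp only [e4, decide_false, Bool.false_and] at m2
      rw [e3, Nat.testBit_xor, Nat.testBit_and, Nat.testBit_and, m2]
      simp
  · rw [Nat.testBit_or, Nat.testBit_and, m1, Nat.testBit_shiftLeft, Bool.and_false, Bool.false_or,
      Nat.add_sub_cancel, Nat.testBit_xor, Nat.testBit_and, Nat.testBit_and, m0, Nat.testBit_shiftRight,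
      Bool.and_true, Bool.and_true, add_comm 1]
    simp

section

variable {F : Type*} [Field F] {ω : F} (h : Om ω)

include h in
theorem cv_om (v : ℕ) {i : ℕ} (hi : i < 9) : cv ω (om v) i = ω * cv ω v i := by
  unfold cv
  rw [(om_bits v hi).1, (om_bits v hi).2]
  have h2 := h.two
  have h3 := h.om
  have h5 : ω * ω = 1 + ω := by linear_combination h3 - ω * h2 - h2
  cases v.testBit (2 * i) <;> cases v.testBit (2 * i + 1) <;> simp
  · exact h5.symm
  · rw [mul_add, h5]
    linear_combination - ω * h2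

end

theorem mn_cases (a b : ℕ) : mn a b = a ∧ a ≤ b ∨ mn a b = b ∧ b ≤ a := by
  unfold mn
  cases hb : Nat.ble a b
  · right
    refine ⟨rfl, ?_⟩
    by_contra hc
    have : Nat.ble a b = true := Nat.ble_eq_true_of_le (by omega)
    rw [this] at hb
    exact absurd hb (by decide)
  · left
    exact ⟨rfl, Nat.le_of_ble_eq_true hb⟩

theorem nrm_eq (v : ℕ) : nrm v = mn (mn v (om v)) (v ^^^ om v) := rfl

theorem nrm_le (v : ℕ) : nrm v ≤ v ∧ nrm v ≤ om v ∧ nrm v ≤ v ^^^ om v := by
  rw [nrm_eq]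
  rcases mn_cases v (om v) with h1 | h1 <;> rcases mn_cases (mn v (om v)) (v ^^^ om v) with h2 | h2 <;> omega

theorem nrm_cases (v : ℕ) : nrm v = v ∨ nrm v = om v ∨ nrm v = v ^^^ om v := by
  rw [nrm_eq]
  rcases mn_cases v (om v) with h1 | h1 <;> rcases mn_cases (mn v (om v)) (v ^^^ om v) with h2 | h2 <;> omega

theorem nrm_norm {v : ℕ} (hv : v < 262144) (h0 : v ≠ 0) : Norm (nrm v) := by
  -- top position
  obtain ⟨k, hk, h1, h2⟩ : ∃ k < 9, 4 ^ k ≤ v ∧ v < 4 ^ (k + 1) := by
    refine ⟨Nat.log 4 v, ?_, Nat.pow_log_le_self 4 h0, Nat.lt_pow_succ_log_self (by norm_num) v⟩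
    apply Nat.log_lt_of_lt_pow h0
    norm_num; exact hv
  have h4 : ∀ m : ℕ, (4 : ℕ) ^ m = 2 ^ (2 * m) := fun m => by rw [pow_mul]; norm_num
  have hbit : ∀ j, 2 * k + 2 ≤ j → v.testBit j = false := by
    intro j hj
    apply Nat.testBit_lt_two_pow
    rw [h4] at h2
    exact lt_of_lt_of_le h2 (Nat.pow_le_pow_right (by norm_num) (by omega))
  have hsome : v.testBit (2 * k) = true ∨ v.testBit (2 * k + 1) = true := by
    by_contra hc
    push Not at hc
    have hc1 : v.testBit (2 * k) = false := by simpa using hc.1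
    have hc2 : v.testBit (2 * k + 1) = false := by simpa using hc.2
    have : v < 2 ^ (2 * k) := by
      apply Nat.lt_pow_two_of_testBit
      intro j hj
      rcases Nat.lt_or_ge j (2 * k + 2) with h5 | h5
      · have : j = 2 * k ∨ j = 2 * k + 1 := by omega
        rcases this with rfl | rfl
        · exact hc1
        · exact hc2
      · exact hbit j h5
    rw [h4] at h1
    omega
  -- bits of om
  have hom : ∀ j, 2 * k + 2 ≤ j → (om v).testBit j = false := by
    intro j hj
    rcases Nat.lt_or_ge j 18 with h5 | h5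
    · obtain ⟨i, hi | hi⟩ : ∃ i, j = 2 * i ∨ j = 2 * i + 1 := ⟨j / 2, by omega⟩
      · rw [hi, (om_bits v (show i < 9 by omega)).1, hbit _ (by omega)]
      · rw [hi, (om_bits v (show i < 9 by omega)).2, hbit _ (by omega), hbit _ (by omega)]; rfl
    · apply Nat.testBit_lt_two_pow
      exact lt_of_lt_of_le (om_lt v) (by
        calc 262144 = 2 ^ 18 := by norm_num
          _ ≤ 2 ^ j := Nat.pow_le_pow_right (by norm_num) h5)
  have hxo : ∀ j, 2 * k + 2 ≤ j → (v ^^^ om v).testBit j = false := by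
    intro j hj
    rw [Nat.testBit_xor, hbit j hj, hom j hj]; rfl
  have b0 := (om_bits v hk).1
  have b1 := (om_bits v hk).2
  have x0 : (v ^^^ om v).testBit (2 * k) = xor (v.testBit (2 * k)) (v.testBit (2 * k + 1)) := by
    rw [Nat.testBit_xor, b0]
  have x1 : (v ^^^ om v).testBit (2 * k + 1) = v.testBit (2 * k) := by
    rw [Nat.testBit_xor, b1]
    cases v.testBit (2 * k) <;> cases v.testBit (2 * k + 1) <;> rfl
  have lt_of : ∀ w : ℕ, (∀ j, 2 * k + 2 ≤ j → w.testBit j = false) → w.testBit (2 * k + 1) = false → w < 2 * 4 ^ k := by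
    intro w hw hw1
    have : w < 2 ^ (2 * k + 1) := by
      apply Nat.lt_pow_two_of_testBit
      intro j hj
      rcases Nat.lt_or_ge j (2 * k + 2) with h5 | h5
      · have : j = 2 * k + 1 := by omega
        rw [this]; exact hw1
      · exact hw j h5
    rw [pow_succ, ← h4] at this
    omega
  have ge_of : ∀ w : ℕ, (w.testBit (2 * k) = true ∨ w.testBit (2 * k + 1) = true) → 4 ^ k ≤ w := by
    intro w hw
    rw [h4]
    rcases hw with hw | hw
    · exact Nat.ge_two_pow_of_testBit hw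
    · exact le_trans (Nat.pow_le_pow_right (by norm_num) (by omega)) (Nat.ge_two_pow_of_testBit hw)
  have hlt : nrm v < 2 * 4 ^ k := by
    obtain ⟨n1, n2, n3⟩ := nrm_le v
    cases hb1 : v.testBit (2 * k + 1)
    · exact lt_of_le_of_lt n1 (lt_of v hbit hb1)
    · cases hb0 : v.testBit (2 * k)
      · rw [hb0] at x1
        exact lt_of_le_of_lt n3 (lt_of _ hxo x1)
      · rw [hb0, hb1] at b1
        exact lt_of_le_of_lt n2 (lt_of _ hom b1)
  have hge : 4 ^ k ≤ nrm v := by
    rcases nrm_cases v with h5 | h5 | h5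
    · rw [h5]; exact h1
    · rw [h5]
      apply ge_of
      rw [b0, b1]
      rcases hsome with h6 | h6 <;> rw [h6] <;> cases v.testBit (2 * k) <;> cases v.testBit (2 * k + 1) <;> simp
    · rw [h5]
      apply ge_of
      rw [x0, x1]
      rcases hsome with h6 | h6 <;> rw [h6] <;> cases v.testBit (2 * k) <;> cases v.testBit (2 * k + 1) <;> simp
  exact ⟨k, hk, hge, hlt⟩

end Cfsg.Agent.H80.J3O
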