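import Cfsg.Agent.Golay.M12

/-! Explicit permutations generating `M12` on twelve points. -/

set_option autoImplicit false
set_option linter.style.haveILetI false

namespace Cfsg.Agent.H80.M12P

open Cfsg MulAction Cfsg.Agent.Golay
open scoped Pointwise

def eL : List ℕ := [0, 1, 2, 3, 4, 12, 6, 16, 18, 9, 13, 8]
def ext : List ℕ := [0x5de8e29a329d503b29a93c1ec20820, 0xbda8e7a0ed2d4925c46c5267030820, 0x8aa6fa22f2a96093ac8db31c618820, 0x75576518ac3dd28a3e449b63018820, 0x2bd47b11c65c5929d209aa2ed18820, 0xbbeb45b5c6b464c99d09540a400823, 0xbd9f3a222da960c59cd2525c418801, 0x2ceb4b36295ba4c79e06522e418440]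
def gtab : List ℕ := [0x9ba687354210, 0x543ba9876210, 0xa74b85963210, 0x49865ab73210, 0x95746b8a3210, 0x98ba67540213, 0x876ba9543201, 0x687a9b543120]
def cert11 : List (ℕ × ℕ × ℕ) := [(0, 6, 0x876ba9543201), (0, 5, 0x98ba67540213), (2, 0, 0xa69b78350214), (3, 0, 0xb7a986430215), (2, 1, 0x3b549a870216), (3, 1, 0x4935ab680217), (4, 1, 0x5a43b9760218), (5, 1, 0x658734ba0219), (3, 4, 0x5b796438021a), (5, 4, 0x398a7546021b), (2, 6, 0x6b879a541203), (11, 5, 0x79a6b8541230), (12, 0, 0x8ab796351240), (13, 0, 0x6b98a7431250), (12, 1, 0xa3495b871260), (13, 1, 0xb45a39681270), (14, 4, 0xb97456a31280), (1, 5, 0xa6798b540231), (18, 1, 0x49a3b5870261), (19, 6, 0x467385ba1290), (13, 4, 0x45967b3812a0), (15, 4, 0x53a7894612b0), (0, 0, 0x9ba687354210), (23, 0, 0xa9b768435210), (0, 1, 0x543ba9876210), (23, 1, 0x3549ba687210), (24, 1, 0x435a9b768210), (25, 1, 0x876543ba9210), (23, 4, 0x795b4638a210), (25, 4, 0x8a395746b210), (0, 2, 0xa74b85963210), (31, 2, 0x786ab9453210),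 (0, 3, 0x49865ab73210), (33, 2, 0x64b597a83210), (0, 4, 0x95746b8a3210), (35, 3, 0x8b57a4693210), (31, 4, 0x56a9487b3210)]
def cert0 : List (ℕ × ℕ × ℕ) := [(0, 7, 0x687a9b543120), (1, 6, 0x9ba768543021), (2, 5, 0xb9867a540321), (3, 0, 0x9a678b350421), (3, 1, 0x53b9a4870621), (4, 0, 0xab7869430521), (4, 1, 0x349ab5680721), (4, 4, 0x75b649380a21), (5, 1, 0x865347ba0921), (5, 4, 0x83975a460b21), (6, 1, 0x45ab93760821)]

/-- entry of a table -/
def tab (n i : ℕ) : ℕ := Nat.land (Nat.shiftRight n (Nat.mul 4 i)) 15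

def idt : ℕ := 0xba9876543210

def IsTab (n : ℕ) (σ : Equiv.Perm (Fin 12)) : Prop := ∀ i : Fin 12, ((σ i : Fin 12) : ℕ) = tab n i

def lt12 (p : ℕ → Bool) : Bool := p 0 && p 1 && p 2 && p 3 && p 4 && p 5 && p 6 && p 7 && p 8 && p 9 && p 10 && p 11

theorem lt12_iff {p : ℕ → Bool} (h : lt12 p = true) (i : Fin 12) : p i = true := by
  unfold lt12 at h
  simp only [Bool.and_eq_true] at h
  fin_cases i <;> simp_all

def chk (gs : List ℕ) : List (ℕ × ℕ × ℕ) → List ℕ → Bool
  | [], _ => true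
  | (p, j, T) :: l, acc =>
    lt12 (fun i => Nat.beq (tab T i) (tab (gs.getD j idt) (tab (acc.getD p idt) i))) && chk gs l (acc ++ [T])

def Good (G : Subgroup (Equiv.Perm (Fin 12))) (n : ℕ) : Prop := ∃ σ ∈ G, IsTab n σ

theorem good_idt (G : Subgroup (Equiv.Perm (Fin 12))) : Good G idt :=
  ⟨1, G.one_mem, by unfold IsTab; decide⟩

theorem good_getD {G : Subgroup (Equiv.Perm (Fin 12))} {l : List ℕ} (h : ∀ n ∈ l, Good G n) (k : ℕ) :
    Good G (l.getD k idt) := by
  by_cases hk : k < l.length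
  · rw [List.getD_eq_getElem _ _ hk]; exact h _ (List.getElem_mem hk)
  · rw [List.getD_eq_default _ _ (by omega)]; exact good_idt G

theorem perm_of_tab {n : ℕ} {σ τ : Equiv.Perm (Fin 12)} {a b : ℕ} (hσ : IsTab a σ) (hτ : IsTab b τ)
    (h : ∀ i : Fin 12, tab n i = tab a (tab b i)) : IsTab n (σ * τ) := by
  intro i
  rw [Equiv.Perm.mul_apply, hσ, hτ, h]

theorem chk_spec {G : Subgroup (Equiv.Perm (Fin 12))} {gs : List ℕ} (hg : ∀ n ∈ gs, Good G n) :
    ∀ (l : List (ℕ × ℕ × ℕ)) (acc : List ℕ), (∀ n ∈ acc, Good G n) → chk gs l acc = true →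
      ∀ x ∈ l, Good G x.2.2 := by
  intro l
  induction l with
  | nil => intro acc _ _ x hx; exact absurd hx (by simp)
  | cons a l ih =>
    obtain ⟨p, j, T⟩ := a
    intro acc hacc h x hx
    simp only [chk, Bool.and_eq_true] at h
    obtain ⟨σ, hσ, hσ'⟩ := good_getD hg j
    obtain ⟨τ, hτ, hτ'⟩ := good_getD hacc p
    have hT : Good G T := ⟨σ * τ, G.mul_mem hσ hτ, by
      intro i
      have := Nat.eq_of_beq_eq_true (lt12_iff h.1 i)
      rw [Equiv.Perm.mul_apply, hσ', hτ', this]⟩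
    rcases List.mem_cons.1 hx with rfl | hx
    · exact hT
    · refine ih (acc ++ [T]) ?_ h.2 x hx
      intro n hn
      rcases List.mem_append.1 hn with hn | hn
      · exact hacc n hn
      · rw [List.mem_singleton] at hn; rw [hn]; exact hT

/-- base points -/
def bL : List ℕ := [2, 0, 1, 3, 4]

def bp (k : ℕ) : Fin 12 := if k = 0 then 2 else if k = 1 then 0 else if k = 2 then 1 else if k = 3 then 3 else 4

/-- level check: some table in `l` fixes the first `k` base points and maps the `k`-th to `p` -/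
def lev (l : List ℕ) (k p : ℕ) : Bool :=
  l.any (fun n => ((bL.take k).all fun b => Nat.beq (tab n b) b) && Nat.beq (tab n (bL.getD k 0)) p)

theorem lev_spec {G : Subgroup (Equiv.Perm (Fin 12))} {l : List ℕ} (hl : ∀ n ∈ l, Good G n) {k : ℕ}
    (hk : k < 5) {p : Fin 12} (h : lev l k p = true) :
    ∃ g ∈ G, (∀ j < k, g (bp j) = bp j) ∧ g (bp k) = p := by
  unfold lev at h
  rw [List.any_eq_true] at h
  obtain ⟨n, hn, h⟩ := h
  obtain ⟨σ, hσ, hT⟩ := hl n hn
  rw [Bool.and_eq_true, List.all_eq_true] at h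
  have hb : ∀ j < 5, bL.getD j 0 = (bp j : ℕ) := by decide
  refine ⟨σ, hσ, ?_, ?_⟩
  · intro j hj
    apply Fin.ext
    rw [hT, ← hb j (by omega)]
    apply Nat.eq_of_beq_eq_true
    apply h.1
    have hlen : j < bL.length := by simp [bL]; omega
    rw [List.getD_eq_getElem _ _ hlen]
    rw [List.mem_take_iff_getElem]
    exact ⟨j, by simp [bL]; omega, rfl⟩
  · apply Fin.ext
    rw [hT, ← hb k hk]
    exact Nat.eq_of_beq_eq_true h.2

/-- extension along the base -/
theorem extend {G : Subgroup (Equiv.Perm (Fin 12))} {m0 : ℕ}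
    (hlev : ∀ k, m0 ≤ k → k < 5 → ∀ p : Fin 12, (∀ j < k, p ≠ bp j) →
      ∃ g ∈ G, (∀ j < k, g (bp j) = bp j) ∧ g (bp k) = p)
    (x : ℕ → Fin 12) (hx : ∀ i j, i < j → j < 5 → x i ≠ x j)
    (h0 : ∃ g ∈ G, ∀ i < m0, g (bp i) = x i) :
    ∀ m, m0 ≤ m → m ≤ 5 → ∃ g ∈ G, ∀ i < m, g (bp i) = x i := by
  intro m hm
  induction m, hm using Nat.le_induction with
  | base => intro _; exact h0
  | succ m hm ih =>
    intro hm5
    obtain ⟨g, hg, hgx⟩ := ih (by omega)
    obtain ⟨h, hh, h1, h2⟩ := hlev m hm (by omega) (g⁻¹ (x m)) (by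
      intro j hj h
      have h3 : x m = g (bp j) := by rw [← h]; simp
      rw [hgx j hj] at h3
      exact hx j m hj (by omega) h3.symm)
    refine ⟨g * h, G.mul_mem hg hh, ?_⟩
    intro i hi
    rw [Equiv.Perm.mul_apply]
    rcases Nat.lt_succ_iff_lt_or_eq.1 hi with hi | rfl
    · rw [h1 i hi, hgx i hi]
    · rw [h2]; simp

/-! ### the embedding in `M24` -/

def ep (i : Fin 12) : GolayPt := pt (eL.getD i 0)

theorem ep_inj : Function.Injective ep := by decide +kernel

theorem ep_mem (i : Fin 12) : ep i ∈ d0 := by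
  unfold d0
  rw [mem_ofMask]
  revert i
  decide +kernel

/-- `g` is the restriction of an element of the dodecad stabiliser -/
def Lift (g : Equiv.Perm (Fin 12)) : Prop :=
  ∃ γ : M24, γ ∈ stabilizer M24 d0 ∧ ∀ i, γ • ep i = ep (g i)

theorem lift_closure {S : Set (Equiv.Perm (Fin 12))} (hS : ∀ s ∈ S, Lift s) :
    ∀ g ∈ Subgroup.closure S, Lift g := by
  intro g hg
  induction hg using Subgroup.closure_induction with
  | mem x hx => exact hS x hx
  | one => exact ⟨1, Subgroup.one_mem _, fun i => by simp⟩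
  | mul a b _ _ ha hb =>
    obtain ⟨α, h1, h2⟩ := ha
    obtain ⟨β, h3, h4⟩ := hb
    exact ⟨α * β, Subgroup.mul_mem _ h1 h3, fun i => by rw [mul_smul, h4, h2]; rfl⟩
  | inv a _ ha =>
    obtain ⟨α, h1, h2⟩ := ha
    refine ⟨α⁻¹, Subgroup.inv_mem _ h1, fun i => ?_⟩
    rw [inv_smul_eq_iff, h2]
    simp

theorem unique {g g' : Equiv.Perm (Fin 12)} (hg : Lift g) (hg' : Lift g') (x : Fin 5 → Fin 12)
    (hx : Function.Injective x) (h : ∀ i, g (x i) = g' (x i)) : g = g' := by
  obtain ⟨α, h1, h2⟩ := hg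
  obtain ⟨β, h3, h4⟩ := hg'
  have hαβ : α = β := M12_unique d0_mem h1 h3 (fun i => ep (x i)) (fun i => ep_mem _)
    (fun i j hij => hx (ep_inj hij)) (fun i => by rw [h2, h4, h])
  apply Equiv.ext
  intro i
  apply ep_inj
  rw [← h2, ← h4, hαβ]

def liftOK (n t : ℕ) : Bool :=
  (match validM24 n with | true => true | false => false) && Nat.beq (pmask n 340831) 340831 &&
    lt12 (fun i => Nat.beq (papp n (eL.getD i 0)) (eL.getD (tab t i) 0))

theorem lift_of {n t : ℕ} (h : liftOK n t = true) {g : Equiv.Perm (Fin 12)} (hg : IsTab t g) : Lift g := by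
  unfold liftOK at h
  simp only [Bool.and_eq_true] at h
  obtain ⟨⟨h1, h2⟩, h3⟩ := h
  have hv : validM24 n = true := by
    cases hh : validM24 n
    · rw [hh] at h1; exact absurd h1 (by decide)
    · rfl
  obtain ⟨σ, hσ, hT⟩ := exists_mem_M24 hv
  refine ⟨⟨σ, hσ⟩, ?_, ?_⟩
  · show σ • d0 = d0
    unfold d0
    rw [smul_ofMask hT (by norm_num), Nat.eq_of_beq_eq_true h2]
  · intro i
    apply idx_injective
    show idx (σ (ep i)) = _
    have hlt : ∀ j : Fin 12, eL.getD j 0 < 24 := by decide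
    rw [hT]
    unfold ep
    rw [idx_pt (hlt i), idx_pt (hlt _), hg]
    exact Nat.eq_of_beq_eq_true (lt12_iff h3 i)

theorem lifts_ok : ∀ j < 8, liftOK (ext.getD j 0) (gtab.getD j 0) = true := by decide +kernel

theorem chk11 : chk (gtab.take 7) cert11 [idt] = true := by decide +kernel
theorem chk0 : chk gtab cert0 [idt] = true := by decide +kernel

def l11 : List ℕ := idt :: cert11.map (fun x => x.2.2)
def l0 : List ℕ := idt :: cert0.map (fun x => x.2.2)

theorem lev11 : ∀ k < 5, 1 ≤ k → ∀ p : Fin 12, (∀ j < k, p ≠ bp j) → lev l11 k p = true := by decide +kernel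
theorem lev0 : ∀ p : Fin 12, lev l0 0 p = true := by decide +kernel

theorem main {G H : Subgroup (Equiv.Perm (Fin 12))} (hHG : H ≤ G)
    (hG : ∀ n ∈ gtab, Good G n) (hH : ∀ n ∈ gtab.take 7, Good H n) (hlift : ∀ g ∈ G, Lift g)
    (hH2 : ∀ g ∈ H, g 2 = 2) :
    MulAction.IsMultiplyPretransitive G (Fin 12) 5 ∧ (∀ y : Fin 5 ↪ Fin 12, MulAction.stabilizer G y = ⊥) ∧
    Nat.card G = 95040 ∧ Nat.card H = 7920 ∧
    H = G ⊓ MulAction.stabilizer (Equiv.Perm (Fin 12)) (2 : Fin 12) := by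
  classical
  have g0 : ∀ n ∈ l0, Good G n := by
    intro n hn
    rcases List.mem_cons.1 hn with rfl | hn
    · exact good_idt G
    · obtain ⟨x, hx, rfl⟩ := List.mem_map.1 hn
      exact chk_spec hG cert0 [idt] (by intro n hn; rw [List.mem_singleton] at hn; rw [hn]; exact good_idt G)
        chk0 x hx
  have g1 : ∀ n ∈ l11, Good H n := by
    intro n hn
    rcases List.mem_cons.1 hn with rfl | hn
    · exact good_idt H
    · obtain ⟨x, hx, rfl⟩ := List.mem_map.1 hn
      exact chk_spec hH cert11 [idt] (by intro n hn; rw [List.mem_singleton] at hn; rw [hn]; exact good_idt H)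
        chk11 x hx
  have levH : ∀ k, 1 ≤ k → k < 5 → ∀ p : Fin 12, (∀ j < k, p ≠ bp j) →
      ∃ g ∈ H, (∀ j < k, g (bp j) = bp j) ∧ g (bp k) = p :=
    fun k h1 h5 p hp => lev_spec g1 h5 (lev11 k h5 h1 p hp)
  have levG : ∀ k, 0 ≤ k → k < 5 → ∀ p : Fin 12, (∀ j < k, p ≠ bp j) →
      ∃ g ∈ G, (∀ j < k, g (bp j) = bp j) ∧ g (bp k) = p := by
    intro k _ h5 p hp
    rcases Nat.eq_zero_or_pos k with rfl | hk
    · exact lev_spec g0 h5 (lev0 p)
    · obtain ⟨g, hg, h⟩ := levH k hk h5 p hp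
      exact ⟨g, hHG hg, h⟩
  -- extension of base images
  let ext5 : (Fin 5 → Fin 12) → ℕ → Fin 12 := fun x i => if h : i < 5 then x ⟨i, h⟩ else 0
  have hext : ∀ (x : Fin 5 → Fin 12), Function.Injective x → ∀ i j, i < j → j < 5 → ext5 x i ≠ ext5 x j := by
    intro x hx i j hij hj h
    simp only [ext5, dif_pos hj, dif_pos (show i < 5 by omega)] at h
    have := congrArg Fin.val (hx h)
    simp only at this
    omega
  have hex : ∀ x : Fin 5 → Fin 12, Function.Injective x → ∃ g ∈ G, ∀ i : Fin 5, g (bp i) = x i := by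
    intro x hx
    obtain ⟨g, hg, h⟩ := extend levG (ext5 x) (hext x hx) ⟨1, G.one_mem, fun i hi => absurd hi (by omega)⟩ 5
      (by omega) le_rfl
    refine ⟨g, hg, fun i => ?_⟩
    rw [h i i.2]
    simp [ext5]
  have hbp : Function.Injective (fun i : Fin 5 => bp i) := by decide
  have huniq : ∀ g ∈ G, ∀ g' ∈ G, (∀ i : Fin 5, g (bp i) = g' (bp i)) → g = g' :=
    fun g hg g' hg' h => unique (hlift g hg) (hlift g' hg') (fun i : Fin 5 => bp i) hbp h
  -- cardinality
  have hcard : Nat.card G = 95040 := by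
    have e : G ≃ (Fin 5 ↪ Fin 12) := Equiv.ofBijective
      (fun g => ⟨fun i => g.1 (bp i), fun i j h => hbp (g.1.injective h)⟩) ⟨by
        rintro ⟨g, hg⟩ ⟨g', hg'⟩ h
        apply Subtype.ext
        apply huniq g hg g' hg'
        intro i
        exact congrFun (congrArg (fun f : Fin 5 ↪ Fin 12 => (f : Fin 5 → Fin 12)) h) i, by
        intro x
        obtain ⟨g, hg, h⟩ := hex x x.injective
        refine ⟨⟨g, hg⟩, ?_⟩
        ext i
        exact congrArg Fin.val (h i)⟩
    rw [Nat.card_congr e, Nat.card_eq_fintype_card, Fintype.card_embedding_eq]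
    decide
  have hHeq : H = G ⊓ MulAction.stabilizer (Equiv.Perm (Fin 12)) (2 : Fin 12) := by
    apply le_antisymm
    · intro g hg
      exact ⟨hHG hg, hH2 g hg⟩
    · rintro g ⟨hg, hg2⟩
      have hg2' : g 2 = 2 := hg2
      have hxinj : Function.Injective (fun i : Fin 5 => g (bp i)) := fun i j h => hbp (g.injective h)
      obtain ⟨h, hh, h1⟩ := extend levH (ext5 (fun i => g (bp i))) (hext _ hxinj)
        ⟨1, H.one_mem, by
          intro i hi
          have : i = 0 := by omega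
          subst this
          show bp 0 = g (bp 0)
          exact hg2'.symm⟩ 5 (by omega) le_rfl
      have : g = h := by
        apply huniq g hg h (hHG hh)
        intro i
        rw [h1 i i.2]
        simp [ext5]
      rw [this]; exact hh
  refine ⟨?_, ?_, hcard, ?_, hHeq⟩
  · refine ⟨fun x y => ?_⟩
    obtain ⟨g, hg, h⟩ := hex x x.injective
    obtain ⟨g', hg', h'⟩ := hex y y.injective
    refine ⟨⟨g' * g⁻¹, G.mul_mem hg' (G.inv_mem hg)⟩, ?_⟩
    ext i
    show (((g' * g⁻¹) (x i) : Fin 12) : ℕ) = y i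
    rw [← h i, Equiv.Perm.mul_apply]
    have : g⁻¹ (g (bp i)) = bp i := by simp
    rw [this, h']
  · intro y
    rw [eq_bot_iff]
    rintro ⟨g, hg⟩ hgy
    rw [Subgroup.mem_bot]
    apply Subtype.ext
    show g = 1
    refine unique (hlift g hg) (hlift 1 G.one_mem) y y.injective (fun i => ?_)
    have : (⟨g, hg⟩ : G) • y = y := hgy
    have := congrFun (congrArg (fun f : Fin 5 ↪ Fin 12 => (f : Fin 5 → Fin 12)) this) i
    exact this
  · -- |H| = 95040 / 12
    have h1 := (MulAction.stabilizer G (2 : Fin 12)).card_mul_index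
    rw [MulAction.index_stabilizer] at h1
    have h2 : MulAction.orbit G (2 : Fin 12) = Set.univ := by
      ext p
      refine ⟨fun _ => trivial, fun _ => ?_⟩
      obtain ⟨g, hg, _, h⟩ := levG 0 le_rfl (by omega) p (fun j hj => absurd hj (by omega))
      exact ⟨⟨g, hg⟩, h⟩
    rw [h2, Set.ncard_univ, Nat.card_eq_fintype_card (α := Fin 12), Fintype.card_fin, hcard] at h1
    have h3 : Nat.card H = Nat.card (MulAction.stabilizer G (2 : Fin 12)) := by
      rw [hHeq]
      refine Nat.card_congr (Equiv.ofBijective (fun g => ⟨⟨g.1, g.2.1⟩, g.2.2⟩) ⟨?_, ?_⟩)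
      · rintro ⟨g, hg⟩ ⟨g', hg'⟩ h
        apply Subtype.ext
        exact congrArg (fun z : MulAction.stabilizer G (2 : Fin 12) => z.1.1) h
      · rintro ⟨⟨g, hg⟩, hg2⟩
        exact ⟨⟨g, hg, hg2⟩, rfl⟩
    omega

end Cfsg.Agent.H80.M12P
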