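import Cfsg.Agent.H80.TwoFix
import Cfsg.Agent.Char.ClassSum
import Cfsg.Agent.Char.Linear
import Cfsg.Prelude.Def_Blocks

set_option autoImplicit false

/-! Primitive linear groups of degree 2. Owner: helper80. -/

namespace Cfsg.Agent.H80.Prim2

open Cfsg Module

abbrev V2 : Type := Fin 2 → ℂ

theorem indep_of_eig {f : V2 →ₗ[ℂ] V2} {a b : ℂ} (hab : a ≠ b) {v w : V2} (hv : v ≠ 0) (hw : w ≠ 0)
    (h1 : f v = a • v) (h2 : f w = b • w) : LinearIndependent ℂ ![v, w] := by
  rw [LinearIndependent.pair_iff]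
  intro s t h
  have h3 : s • a • v + t • b • w = 0 := by
    have := congrArg f h
    rw [map_add, map_smul, map_smul, h1, h2, map_zero] at this
    exact this
  have h4 : (t * (b - a)) • w = 0 := by
    have : (t * (b - a)) • w = (s • a • v + t • b • w) - a • (s • v + t • w) := by module
    rw [this, h3, h, smul_zero, sub_zero]
  have ht : t = 0 := by
    rcases smul_eq_zero.1 h4 with h5 | h5
    · rcases mul_eq_zero.1 h5 with h6 | h6
      · exact h6
      · exact absurd (sub_eq_zero.1 h6).symm hab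
    · exact absurd h5 hw
  subst ht
  have : s • v = 0 := by simpa using h
  exact ⟨(smul_eq_zero.1 this).resolve_right hv, rfl⟩

theorem trace_of_indep {v w : V2} (h : LinearIndependent ℂ ![v, w]) (f : V2 →ₗ[ℂ] V2) {p q r s : ℂ}
    (hv : f v = p • v + q • w) (hw : f w = r • v + s • w) : LinearMap.trace ℂ V2 f = p + s := by
  let b := basisOfLinearIndependentOfCardEqFinrank h (by simp)
  have hb0 : b 0 = v := by simp [b]
  have hb1 : b 1 = w := by simp [b]
  rw [LinearMap.trace_eq_matrix_trace ℂ b, Matrix.trace_fin_two, LinearMap.toMatrix_apply, LinearMap.toMatrix_apply,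
    hb0, hb1, hv, hw, ← hb0, ← hb1]
  simp

theorem exists_coords {v w : V2} (h : LinearIndependent ℂ ![v, w]) (u : V2) : ∃ s t : ℂ, u = s • v + t • w := by
  let b := basisOfLinearIndependentOfCardEqFinrank h (by simp)
  have hb0 : b 0 = v := by simp [b]
  have hb1 : b 1 = w := by simp [b]
  refine ⟨b.repr u 0, b.repr u 1, ?_⟩
  have := b.sum_repr u
  rw [Fin.sum_univ_two, hb0, hb1] at this
  exact this.symm

theorem exists_two (f : V2 →ₗ[ℂ] V2) (n : ℕ) (hn : n ≠ 0) (hf : f ^ n = 1) (hns : ∀ c : ℂ, f ≠ c • LinearMap.id) :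
    ∃ a b : ℂ, a ≠ b ∧ ∃ v w : V2, v ≠ 0 ∧ w ≠ 0 ∧ f v = a • v ∧ f w = b • w := by
  have hsep : Squarefree (Polynomial.X ^ n - 1 : Polynomial ℂ) := by
    apply Polynomial.Separable.squarefree
    have := Polynomial.separable_X_pow_sub_C (1 : ℂ) (n := n) (by exact_mod_cast hn) one_ne_zero
    simpa using this
  have hss : Module.End.IsSemisimple f :=
    Module.End.isSemisimple_of_squarefree_aeval_eq_zero hsep (by simp [hf])
  have htop : ⨆ μ, Module.End.eigenspace f μ = ⊤ := by
    have h1 := Module.End.iSup_maxGenEigenspace_eq_top f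
    have h2 : ∀ μ, Module.End.maxGenEigenspace f μ = Module.End.eigenspace f μ := fun μ =>
      (hss.isFinitelySemisimple).maxGenEigenspace_eq_eigenspace μ
    simpa [h2] using h1
  obtain ⟨a, ha⟩ := Module.End.exists_eigenvalue f
  obtain ⟨v, hv⟩ := ha.exists_hasEigenvector
  by_contra hcon
  push Not at hcon
  have h2 : ∀ b, b ≠ a → Module.End.eigenspace f b = ⊥ := by
    intro b hb
    rw [Submodule.eq_bot_iff]
    intro w hw
    by_contra hw0
    exact hcon a b hb.symm v w hv.2 hw0 hv.apply_eq_smul (Module.End.mem_eigenspace_iff.1 hw)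
  have h3 : Module.End.eigenspace f a = ⊤ := by
    rw [eq_top_iff, ← htop]
    apply iSup_le
    intro b
    by_cases hb : b = a
    · rw [hb]
    · rw [h2 b hb]; exact bot_le
  apply hns a
  apply LinearMap.ext
  intro u
  have : u ∈ Module.End.eigenspace f a := by rw [h3]; trivial
  exact Module.End.mem_eigenspace_iff.1 this

variable {G : Type*} [Group G] [Fintype G]

section Act

variable (ρ : Representation ℂ G V2)

theorem rho_inj (g : G) : Function.Injective (ρ g) := by
  intro v w h
  have := congrArg (ρ g⁻¹) h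
  rw [← Module.End.mul_apply, ← Module.End.mul_apply, ← map_mul, inv_mul_cancel, map_one] at this
  exact this

theorem rho_ne (g : G) {v : V2} (hv : v ≠ 0) : ρ g v ≠ 0 := by
  intro h
  exact hv (rho_inj ρ g (by rw [h, map_zero]))

theorem rho_mul (g h : G) (v : V2) : ρ (g * h) v = ρ g (ρ h v) := by
  rw [map_mul]; rfl

/-- the lines of the representation space -/
def Line : Type := {L : Submodule ℂ V2 // ∃ v : V2, v ≠ 0 ∧ L = Submodule.span ℂ {v}}

def actLine : MulAction G Line where
  smul g L := ⟨L.1.map (ρ g), by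
    obtain ⟨v, hv, hL⟩ := L.2
    exact ⟨ρ g v, rho_ne ρ g hv, by rw [hL, Submodule.map_span, Set.image_singleton]⟩⟩
  one_smul L := Subtype.ext (by
    change L.1.map (ρ 1) = L.1
    rw [map_one]; exact Submodule.map_id _)
  mul_smul g h L := Subtype.ext (by
    change L.1.map (ρ (g * h)) = (L.1.map (ρ h)).map (ρ g)
    rw [map_mul, ← Submodule.map_comp]; rfl)

def mkLine {v : V2} (hv : v ≠ 0) : Line := ⟨Submodule.span ℂ {v}, v, hv, rfl⟩

theorem mkLine_eq_iff {v w : V2} (hv : v ≠ 0) (hw : w ≠ 0) : mkLine hv = mkLine hw ↔ ∃ c : ℂ, w = c • v := by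
  constructor
  · intro h
    have h1 : Submodule.span ℂ {v} = Submodule.span ℂ {w} := congrArg Subtype.val h
    have h2 : w ∈ Submodule.span ℂ {v} := by rw [h1]; exact Submodule.mem_span_singleton_self w
    obtain ⟨c, hc⟩ := Submodule.mem_span_singleton.1 h2
    exact ⟨c, hc.symm⟩
  · rintro ⟨c, rfl⟩
    have hc : c ≠ 0 := by rintro rfl; exact hw (zero_smul _ _)
    apply Subtype.ext
    change Submodule.span ℂ {v} = Submodule.span ℂ {c • v}
    exact (Submodule.span_singleton_smul_eq (IsUnit.mk0 c hc) v).symm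

theorem smul_mkLine (g : G) {v : V2} (hv : v ≠ 0) :
    (actLine ρ).smul g (mkLine hv) = mkLine (rho_ne ρ g hv) := by
  apply Subtype.ext
  change (Submodule.span ℂ {v}).map (ρ g) = Submodule.span ℂ {ρ g v}
  rw [Submodule.map_span, Set.image_singleton]

theorem fix_iff (g : G) {v : V2} (hv : v ≠ 0) :
    (actLine ρ).smul g (mkLine hv) = mkLine hv ↔ ∃ c : ℂ, ρ g v = c • v := by
  rw [smul_mkLine]
  constructor
  · intro h
    exact (mkLine_eq_iff hv (rho_ne ρ g hv)).1 h.symm
  · intro h
    exact ((mkLine_eq_iff hv (rho_ne ρ g hv)).2 h).symm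

theorem line_ind {P : Line → Prop} (h : ∀ (v : V2) (hv : v ≠ 0), P (mkLine hv)) (L : Line) : P L := by
  obtain ⟨v, hv, hL⟩ := L.2
  have : L = mkLine hv := Subtype.ext hL
  rw [this]; exact h v hv

theorem ncard_fix (g : G) (hns : ∀ c : ℂ, ρ g ≠ c • LinearMap.id) :
    Set.ncard {x : Line | (actLine ρ).smul g x = x} = 2 := by
  have hn : Fintype.card G ≠ 0 := Fintype.card_ne_zero
  obtain ⟨a, b, hab, v, w, hv, hw, h1, h2⟩ := exists_two (ρ g) (Fintype.card G) hn
    (by rw [← map_pow, pow_card_eq_one, map_one]) hns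
  have hi := indep_of_eig hab hv hw h1 h2
  have hset : {x : Line | (actLine ρ).smul g x = x} = {mkLine hv, mkLine hw} := by
    ext x
    induction x using line_ind with | _ u hu =>
    simp only [Set.mem_setOf_eq, Set.mem_insert_iff, Set.mem_singleton_iff]
    rw [fix_iff]
    constructor
    · rintro ⟨c, hc⟩
      obtain ⟨s, t, rfl⟩ := exists_coords hi u
      rw [map_add, map_smul, map_smul, h1, h2] at hc
      have h3 : (s * (a - c)) • v + (t * (b - c)) • w = 0 := by
        have : (s * (a - c)) • v + (t * (b - c)) • w = (s • a • v + t • b • w) - c • (s • v + t • w) := by module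
        rw [this, hc, sub_self]
      obtain ⟨h4, h5⟩ := LinearIndependent.pair_iff.1 hi _ _ h3
      by_cases hs : s = 0
      · subst hs
        right
        symm
        rw [mkLine_eq_iff]
        exact ⟨t, by rw [zero_smul, zero_add]⟩
      · have hac : a - c = 0 := (mul_eq_zero.1 h4).resolve_left hs
        have ht : t = 0 := by
          by_contra ht
          have hbc : b - c = 0 := (mul_eq_zero.1 h5).resolve_left ht
          exact hab ((sub_eq_zero.1 hac).trans (sub_eq_zero.1 hbc).symm)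
        subst ht
        left
        symm
        rw [mkLine_eq_iff]
        exact ⟨s, by rw [zero_smul, add_zero]⟩
    · rintro (h | h)
      · obtain ⟨c, rfl⟩ := (mkLine_eq_iff hv hu).1 h.symm
        exact ⟨a, by rw [map_smul, h1, smul_comm]⟩
      · obtain ⟨c, rfl⟩ := (mkLine_eq_iff hw hu).1 h.symm
        exact ⟨b, by rw [map_smul, h2, smul_comm]⟩
  rw [hset, Set.ncard_pair]
  intro h
  obtain ⟨c, rfl⟩ := (mkLine_eq_iff hv hw).1 h
  rw [map_smul, h1, smul_comm] at h2
  have hc : c • v ≠ 0 := hw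
  have h3 : (a - b) • c • v = 0 := by rw [sub_smul, h2, sub_self]
  rcases smul_eq_zero.1 h3 with h4 | h4
  · exact hab (sub_eq_zero.1 h4)
  · exact hc h4

theorem indep_of_not_fix (g : G) {v : V2} (hv : v ≠ 0) (h : ¬ ∃ c : ℂ, ρ g v = c • v) :
    LinearIndependent ℂ ![v, ρ g v] := by
  rw [LinearIndependent.pair_iff]
  intro s t hst
  have ht : t = 0 := by
    by_contra ht
    apply h
    refine ⟨-(t⁻¹ * s), ?_⟩
    have h1 : t • ρ g v = -(s • v) := eq_neg_of_add_eq_zero_right hst
    calc ρ g v = t⁻¹ • t • ρ g v := by rw [smul_smul, inv_mul_cancel₀ ht, one_smul]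
      _ = _ := by rw [h1]; module
  subst ht
  rw [zero_smul, add_zero] at hst
  exact ⟨(smul_eq_zero.1 hst).resolve_right hv, rfl⟩

/-- the stabilizer of a line -/
def stab {v : V2} (hv : v ≠ 0) : Subgroup G where
  carrier := {g | ∃ c : ℂ, ρ g v = c • v}
  one_mem' := ⟨1, by rw [map_one, one_smul]; rfl⟩
  mul_mem' := by
    rintro g h ⟨c, hc⟩ ⟨d, hd⟩
    exact ⟨d * c, by rw [rho_mul, hd, map_smul, hc, smul_smul]⟩
  inv_mem' := by
    rintro g ⟨c, hc⟩
    have hc0 : c ≠ 0 := by
      rintro rfl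
      rw [zero_smul] at hc
      exact rho_ne ρ g hv hc
    refine ⟨c⁻¹, ?_⟩
    apply rho_inj ρ g
    rw [← rho_mul, mul_inv_cancel, map_one, map_smul, hc, smul_smul, inv_mul_cancel₀ hc0, one_smul]
    rfl

theorem mem_stab {v : V2} (hv : v ≠ 0) (g : G) : g ∈ stab ρ hv ↔ ∃ c : ℂ, ρ g v = c • v := Iff.rfl

noncomputable def eig {v : V2} (hv : v ≠ 0) : stab ρ hv →* ℂ where
  toFun h := ((mem_stab ρ hv h.1).1 h.2).choose
  map_one' := by
    have h := ((mem_stab ρ hv (1 : stab ρ hv).1).1 (1 : stab ρ hv).2).choose_spec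
    set c := ((mem_stab ρ hv (1 : stab ρ hv).1).1 (1 : stab ρ hv).2).choose
    have h1 : v = c • v := by
      have : ρ (1 : stab ρ hv).1 v = v := by rw [Subgroup.coe_one, map_one]; rfl
      rw [this] at h; exact h
    have h2 : (1 - c) • v = 0 := by rw [sub_smul, one_smul, ← h1, sub_self]
    exact (sub_eq_zero.1 ((smul_eq_zero.1 h2).resolve_right hv)).symm
  map_mul' x y := by
    have hx := ((mem_stab ρ hv x.1).1 x.2).choose_spec
    have hy := ((mem_stab ρ hv y.1).1 y.2).choose_spec
    have hxy := ((mem_stab ρ hv (x * y).1).1 (x * y).2).choose_spec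
    set c := ((mem_stab ρ hv x.1).1 x.2).choose
    set d := ((mem_stab ρ hv y.1).1 y.2).choose
    set e := ((mem_stab ρ hv (x * y).1).1 (x * y).2).choose
    have h1 : ρ (x * y).1 v = (c * d) • v := by
      rw [Subgroup.coe_mul, rho_mul, hy, map_smul, hx, smul_smul, mul_comm]
    rw [h1] at hxy
    have h2 : (c * d - e) • v = 0 := by rw [sub_smul, hxy, sub_self]
    exact (sub_eq_zero.1 ((smul_eq_zero.1 h2).resolve_right hv)).symm

theorem eig_spec {v : V2} (hv : v ≠ 0) (h : stab ρ hv) : ρ h.1 v = eig ρ hv h • v :=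
  ((mem_stab ρ hv h.1).1 h.2).choose_spec

theorem eq_ind {v : V2} (hv : v ≠ 0) (h2 : (stab ρ hv).index = 2) :
    ρ.character = indFun (stab ρ hv) (eig ρ hv) := by
  classical
  set H := stab ρ hv with hH
  have hN : H.Normal := Subgroup.normal_of_index_eq_two h2
  have hcard : Nat.card G = 2 * Nat.card H := by
    rw [← H.card_mul_index, h2, mul_comm]
  have hH0 : (Nat.card H : ℂ) ≠ 0 := by
    exact_mod_cast (Nat.card_pos (α := H)).ne'
  have hext : ∀ y : H, extendByZero H (eig ρ hv) y.1 = eig ρ hv y := by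
    intro y
    exact Function.Injective.extend_apply Subtype.val_injective _ _ y
  have hext0 : ∀ y : G, y ∉ H → extendByZero H (eig ρ hv) y = 0 := by
    intro y hy
    apply Function.extend_apply'
    rintro ⟨a, ha⟩
    exact hy (ha ▸ a.2)
  funext g
  change LinearMap.trace ℂ V2 (ρ g) = (Nat.card H : ℂ)⁻¹ * ∑ x : G, extendByZero H (eig ρ hv) (x⁻¹ * g * x)
  by_cases hg : g ∈ H
  · have hconj : ∀ x : G, x⁻¹ * g * x ∈ H := fun x => by
      have := hN.conj_mem g hg x⁻¹
      rwa [inv_inv] at this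
    have h1 : ∀ x ∈ H, extendByZero H (eig ρ hv) (x⁻¹ * g * x) = eig ρ hv ⟨g, hg⟩ := by
      intro x hx
      rw [hext ⟨x⁻¹ * g * x, hconj x⟩]
      have e1 : (⟨x⁻¹ * g * x, hconj x⟩ : H) = (⟨x, hx⟩ : H)⁻¹ * ⟨g, hg⟩ * ⟨x, hx⟩ := rfl
      rw [e1, map_mul, map_mul, mul_comm (eig ρ hv (⟨x, hx⟩ : H)⁻¹), mul_assoc, ← map_mul, inv_mul_cancel, map_one,
        mul_one]
    have h3 : ∀ x, x ∉ H → extendByZero H (eig ρ hv) (x⁻¹ * g * x) =
        LinearMap.trace ℂ V2 (ρ g) - eig ρ hv ⟨g, hg⟩ := by
      intro x hx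
      rw [hext ⟨x⁻¹ * g * x, hconj x⟩]
      have hi := indep_of_not_fix ρ x hv hx
      have e1 : ρ g (ρ x v) = (0 : ℂ) • v + eig ρ hv ⟨x⁻¹ * g * x, hconj x⟩ • ρ x v := by
        rw [zero_smul, zero_add, ← map_smul, ← eig_spec ρ hv ⟨x⁻¹ * g * x, hconj x⟩, ← rho_mul, ← rho_mul]
        congr 2
        group
      have e2 : ρ g v = eig ρ hv ⟨g, hg⟩ • v + (0 : ℂ) • ρ x v := by
        rw [zero_smul, add_zero, ← eig_spec ρ hv ⟨g, hg⟩]
      rw [trace_of_indep hi (ρ g) e2 e1]
      ring
    rw [← Finset.sum_filter_add_sum_filter_not Finset.univ (fun x : G => x ∈ H)]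
    rw [Finset.sum_congr rfl (g := fun _ => eig ρ hv ⟨g, hg⟩) (fun x hx => h1 x (Finset.mem_filter.1 hx).2)]
    rw [Finset.sum_congr rfl (s₁ := Finset.filter (fun x : G => ¬ x ∈ H) Finset.univ)
      (g := fun _ => LinearMap.trace ℂ V2 (ρ g) - eig ρ hv ⟨g, hg⟩)
      (fun x hx => h3 x (Finset.mem_filter.1 hx).2)]
    rw [Finset.sum_const, Finset.sum_const]
    have e1 : (Finset.filter (fun x : G => x ∈ H) Finset.univ).card = Nat.card H := by
      rw [Nat.card_eq_fintype_card, Fintype.card_subtype]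
    have e2 : (Finset.filter (fun x : G => ¬ x ∈ H) Finset.univ).card = Nat.card H := by
      have := Finset.card_filter_add_card_filter_not (s := (Finset.univ : Finset G)) (fun x : G => x ∈ H)
      rw [Finset.card_univ, ← Nat.card_eq_fintype_card] at this
      omega
    rw [e1, e2]
    simp only [nsmul_eq_mul]
    field_simp
    ring
  · have h1 : ∀ x : G, x⁻¹ * g * x ∉ H := by
      intro x hx
      apply hg
      have := hN.conj_mem _ hx x
      have e : x * (x⁻¹ * g * x) * x⁻¹ = g := by group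
      rwa [e] at this
    rw [Finset.sum_eq_zero (fun x _ => hext0 _ (h1 x)), mul_zero]
    have hi := indep_of_not_fix ρ g hv hg
    have hgg : g * g ∈ H := Subgroup.mul_self_mem_of_index_two h2 g
    have e1 : ρ g v = (0 : ℂ) • v + (1 : ℂ) • ρ g v := by rw [zero_smul, zero_add, one_smul]
    have e2 : ρ g (ρ g v) = eig ρ hv ⟨g * g, hgg⟩ • v + (0 : ℂ) • ρ g v := by
      rw [zero_smul, add_zero, ← eig_spec ρ hv ⟨g * g, hgg⟩, ← rho_mul]
    rw [trace_of_indep hi (ρ g) e1 e2, add_zero]

end Act

theorem main (ρ : Representation ℂ G V2) [hirr : ρ.IsIrreducible] (hfaith : ∀ g : G, ρ g = 1 → g = 1)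
    (hprim : ∀ H : Subgroup G, H ≠ ⊤ → ∀ θ : H → ℂ, IsCharacter H θ → ρ.character ≠ indFun H θ) :
    (Subgroup.center G).index = 12 ∨ (Subgroup.center G).index = 24 ∨ (Subgroup.center G).index = 60 := by
  let act := actLine ρ
  have hcent : ∀ g : G, g ∈ Subgroup.center G ↔ ∃ c : ℂ, ρ g = c • LinearMap.id := by
    intro g
    constructor
    · intro hg
      apply Char.schur_scalar ρ (ρ g)
      intro h v
      rw [← rho_mul, ← rho_mul, Subgroup.mem_center_iff.1 hg h]
    · rintro ⟨c, hc⟩
      rw [Subgroup.mem_center_iff]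
      intro h
      have h1 : ρ (h * g * (g * h)⁻¹) = 1 := by
        have h2 : ρ (h * g) = ρ (g * h) := by
          rw [map_mul, map_mul, hc]
          ext v
          simp
        rw [map_mul, h2, ← map_mul, mul_inv_cancel, map_one]
      exact mul_inv_eq_one.1 (hfaith _ h1)
  have hstab : ∀ {v : V2} (hv : v ≠ 0), 3 ≤ (stab ρ hv).index := by
    intro v hv
    by_contra hlt
    push Not at hlt
    have h0 : (stab ρ hv).index ≠ 0 := Subgroup.index_ne_zero_of_finite
    have h12 : (stab ρ hv).index = 1 ∨ (stab ρ hv).index = 2 := by omega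
    rcases h12 with h1 | h2
    · rw [Subgroup.index_eq_one] at h1
      let S : Subrepresentation ρ := ⟨Submodule.span ℂ {v}, by
        intro g u hu
        obtain ⟨c, rfl⟩ := Submodule.mem_span_singleton.1 hu
        have hg : g ∈ stab ρ hv := by rw [h1]; trivial
        obtain ⟨d, hd⟩ := (mem_stab ρ hv g).1 hg
        rw [map_smul, hd]
        exact Submodule.smul_mem _ _ (Submodule.smul_mem _ _ (Submodule.mem_span_singleton_self v))⟩
      rcases hirr.eq_bot_or_eq_top S with h3 | h3
      · have h4 : Submodule.span ℂ {v} = ⊥ := congrArg (fun T : Subrepresentation ρ => T.toSubmodule) h3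
        rw [Submodule.span_singleton_eq_bot] at h4
        exact hv h4
      · have h4 : Submodule.span ℂ {v} = ⊤ := congrArg (fun T : Subrepresentation ρ => T.toSubmodule) h3
        have h5 := finrank_span_singleton (K := ℂ) hv
        rw [h4, finrank_top] at h5
        simp at h5
    · have hne : stab ρ hv ≠ ⊤ := by
        intro h
        rw [h, Subgroup.index_top] at h2
        omega
      exact hprim _ hne _ (Char.isCharacter_of_hom (eig ρ hv)) (eq_ind ρ hv h2)
  have hst : ∀ x : Line, 3 ≤ (@MulAction.stabilizer G Line _ act x).index := by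
    intro x
    induction x using line_ind with | _ v hv =>
    have : @MulAction.stabilizer G Line _ act (mkLine hv) = stab ρ hv := by
      ext g
      rw [MulAction.mem_stabilizer_iff, mem_stab]
      exact fix_iff ρ g hv
    rw [this]
    exact hstab hv
  apply TwoFix.index_cases (X := Line)
  · intro z hz x
    induction x using line_ind with | _ v hv =>
    apply (fix_iff ρ z hv).2
    obtain ⟨c, hc⟩ := (hcent z).1 hz
    exact ⟨c, by rw [hc]; rfl⟩
  · intro g hg
    apply ncard_fix ρ g
    intro c hc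
    exact hg ((hcent g).2 ⟨c, hc⟩)
  · intro htop
    have hv : (fun _ => 1 : V2) ≠ 0 := by
      intro h
      have := congrFun h 0
      simp at this
    have h1 := hstab hv
    have h2 : stab ρ hv = ⊤ := by
      rw [eq_top_iff]
      intro g _
      have hg : g ∈ Subgroup.center G := by rw [htop]; trivial
      obtain ⟨c, hc⟩ := (hcent g).1 hg
      exact ⟨c, by rw [hc]; rfl⟩
    rw [h2, Subgroup.index_top] at h1
    omega
  · exact hst

end Cfsg.Agent.H80.Prim2
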