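import Cfsg.Agent.H80.TitsDef


set_option autoImplicit false
set_option maxRecDepth 100000

/-!
Elements of order five in the group of type 2F4 over the field with two elements are conjugate.
-/

namespace Cfsg.Agent.H80.Tits

open Cfsg.Lie Cfsg.Agent.Chev Cfsg.Agent.ChevGrp Cfsg.Agent.ChevGrp.DData Cfsg.Agent.ChevWeyl Cfsg.Agent.ChevTw
  Cfsg.Agent.Tw3 Cfsg.Agent.ChevGrp.RGrp Cfsg.Agent.Tw4 Cfsg.Agent.Uni36

/-- the abstract statement -/
theorem syl5 {G : Type*} [Group G] [Finite G] {x y : G} {m : ℕ} (hG : Nat.card G = 25 * m) (hm : ¬ 5 ∣ m)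
    (hx : x ^ 5 = 1) (hx1 : x ≠ 1) (hy : y ^ 5 = 1) (hxy : x * y = y * x) (hne : ∀ i < 5, y ≠ x ^ i)
    (hc : ∀ i < 5, ∀ k < 5, (i ≠ 0 ∨ k ≠ 0) → ∃ c : G, c * x = x ^ i * y ^ k * c)
    {h : G} (hh : h ^ 5 = 1) (hh1 : h ≠ 1) : ∃ c : G, h = c * x * c⁻¹ := by
  classical
  have : Fact (Nat.Prime 5) := ⟨by norm_num⟩
  have hcom : Commute x y := hxy
  have ox : orderOf x = 5 := orderOf_eq_prime hx hx1
  have hy1 : y ≠ 1 := by
    have := hne 0 (by norm_num)
    rwa [pow_zero] at this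
  have oy : orderOf y = 5 := orderOf_eq_prime hy hy1
  -- the group `⟨x, y⟩`
  have hcomm : ∀ a ∈ Subgroup.zpowers x, ∀ b ∈ Subgroup.zpowers y, a * b = b * a := by
    intro a ha b hb
    obtain ⟨i, rfl⟩ := Subgroup.mem_zpowers_iff.1 ha
    obtain ⟨k, rfl⟩ := Subgroup.mem_zpowers_iff.1 hb
    exact (hcom.zpow_zpow i k).eq
  have hdisj : Disjoint (Subgroup.zpowers x) (Subgroup.zpowers y) := by
    rw [Subgroup.disjoint_def]
    intro a ha hb
    by_contra h1
    have h2 : orderOf a ∣ 5 := by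
      have := orderOf_dvd_of_mem_zpowers hb
      rwa [oy] at this
    have h3 : orderOf a = 5 := by
      rcases (Nat.dvd_prime (by norm_num)).1 h2 with h | h
      · exact absurd (orderOf_eq_one_iff.1 h) h1
      · exact h
    have h4 : Subgroup.zpowers a = Subgroup.zpowers y := by
      refine Subgroup.eq_of_le_of_card_ge (by rwa [Subgroup.zpowers_le]) ?_
      rw [Nat.card_zpowers, Nat.card_zpowers, h3, oy]
    have h5 : y ∈ Subgroup.zpowers x := by
      have h6 : y ∈ Subgroup.zpowers a := by rw [h4]; exact Subgroup.mem_zpowers y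
      have h7 : Subgroup.zpowers a ≤ Subgroup.zpowers x := by rwa [Subgroup.zpowers_le]
      exact h7 h6
    obtain ⟨n, hn⟩ := (mem_powers_iff_mem_zpowers.2 h5 : y ∈ Submonoid.powers x)
    have hn' : x ^ n = y := hn
    apply hne (n % 5) (Nat.mod_lt _ (by norm_num))
    rw [← hn']
    conv_lhs => rw [← Nat.div_add_mod n 5]
    rw [pow_add, pow_mul, hx, one_pow, one_mul]
  let f : Subgroup.zpowers x × Subgroup.zpowers y →* G :=
    { toFun := fun p => (p.1 : G) * p.2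
      map_one' := by simp
      map_mul' := by
        rintro ⟨a, b⟩ ⟨c, d⟩
        show ((a : G) * c) * (b * d) = (a * b) * (c * d)
        have := hcomm c c.2 b b.2
        calc ((a : G) * c) * (b * d) = a * (c * b) * d := by group
          _ = a * (b * c) * d := by rw [this]
          _ = _ := by group }
  have hf : Function.Injective f := by
    rw [injective_iff_map_eq_one]
    rintro ⟨a, b⟩ hab
    have h1 : (a : G) * b = 1 := hab
    have h2 : (a : G) = (b : G)⁻¹ := eq_inv_of_mul_eq_one_left h1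
    have h3 : (a : G) ∈ Subgroup.zpowers y := by rw [h2]; exact inv_mem b.2
    have h4 : (a : G) = 1 := Subgroup.disjoint_def.1 hdisj a.2 h3
    have h5 : (b : G) = 1 := by rw [h4, one_mul] at h1; exact h1
    exact Prod.ext (Subtype.ext h4) (Subtype.ext h5)
  have hcard : Nat.card f.range = 25 := by
    rw [← Nat.card_congr (MonoidHom.ofInjective hf).toEquiv, Nat.card_prod, Nat.card_zpowers, Nat.card_zpowers, ox, oy]
  have hfac : (Nat.card G).factorization 5 = 2 := by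
    rw [hG, show 25 = 5 ^ 2 by norm_num, Nat.factorization_mul (by norm_num) (by rintro rfl; exact hm (dvd_zero _)),
      Nat.Prime.factorization_pow (by norm_num)]
    simp [Nat.factorization_eq_zero_of_not_dvd hm]
  let P : Sylow 5 G := Sylow.ofCard f.range (by rw [hcard, hfac]; norm_num)
  -- `h` lies in a conjugate of `P`
  have oh : orderOf h = 5 := orderOf_eq_prime hh hh1
  have hp : IsPGroup 5 (Subgroup.zpowers h) := IsPGroup.of_card (n := 1) (by rw [Nat.card_zpowers, oh, pow_one])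
  obtain ⟨Q, hQ⟩ := hp.exists_le_sylow
  obtain ⟨g, hg⟩ := MulAction.exists_smul_eq G P Q
  have h1 : h ∈ (Q : Subgroup G) := hQ (Subgroup.mem_zpowers h)
  rw [← hg] at h1
  have h2 : g⁻¹ * h * g ∈ (P : Subgroup G) := by
    have h3 := (Subgroup.mem_pointwise_smul_iff_inv_smul_mem (a := MulAut.conj g) (S := (P : Subgroup G)) (x := h)).1 h1
    simpa [MulAut.smul_def] using h3
  obtain ⟨⟨a, b⟩, hab⟩ : ∃ p, f p = g⁻¹ * h * g := h2
  have hab' : (a : G) * b = g⁻¹ * h * g := hab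
  have hpw : ∀ (z : G), z ^ 5 = 1 → ∀ w ∈ Subgroup.zpowers z, ∃ i < 5, w = z ^ i := by
    intro z hz w hw
    obtain ⟨n, hn⟩ := (mem_powers_iff_mem_zpowers.2 hw : w ∈ Submonoid.powers z)
    have hn' : z ^ n = w := hn
    refine ⟨n % 5, Nat.mod_lt _ (by norm_num), ?_⟩
    rw [← hn']
    conv_lhs => rw [← Nat.div_add_mod n 5]
    rw [pow_add, pow_mul, hz, one_pow, one_mul]
  obtain ⟨i, hi, ei⟩ := hpw x hx a a.2
  obtain ⟨k, hk, ek⟩ := hpw y hy b b.2
  have hik : i ≠ 0 ∨ k ≠ 0 := by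
    by_contra hcon
    push Not at hcon
    rw [ei, ek, hcon.1, hcon.2, pow_zero, pow_zero, one_mul] at hab'
    apply hh1
    have : h = g * (g⁻¹ * h * g) * g⁻¹ := by group
    rw [this, ← hab']; group
  obtain ⟨c, hc'⟩ := hc i hi k hk hik
  refine ⟨g * c, ?_⟩
  have h4 : h = g * (g⁻¹ * h * g) * g⁻¹ := by group
  have h5 : x ^ i * y ^ k = c * x * c⁻¹ := by rw [hc']; group
  rw [h4, ← hab', ei, ek, h5]; group

/-- the statement for a subgroup -/
theorem syl5_sub {G : Type*} [Group G] (S : Subgroup G) [Finite S] {x y : G} (hxS : x ∈ S) (hyS : y ∈ S) {m : ℕ}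
    (hG : Nat.card S = 25 * m) (hm : ¬ 5 ∣ m)
    (hx : x ^ 5 = 1) (hx1 : x ≠ 1) (hy : y ^ 5 = 1) (hxy : x * y = y * x) (hne : ∀ i < 5, y ≠ x ^ i)
    (hc : ∀ i < 5, ∀ k < 5, (i ≠ 0 ∨ k ≠ 0) → ∃ c ∈ S, c * x = x ^ i * y ^ k * c)
    {h : G} (hhS : h ∈ S) (hh : h ^ 5 = 1) (hh1 : h ≠ 1) : ∃ c ∈ S, h = c * x * c⁻¹ := by
  obtain ⟨c, hc'⟩ := syl5 (x := (⟨x, hxS⟩ : S)) (y := ⟨y, hyS⟩) (h := ⟨h, hhS⟩) hG hm
    (Subtype.ext hx) (fun e => hx1 (congrArg Subtype.val e)) (Subtype.ext hy) (Subtype.ext hxy)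
    (fun i hi e => hne i hi (congrArg Subtype.val e))
    (fun i hi k hk hik => by
      obtain ⟨c, hc1, hc2⟩ := hc i hi k hk hik
      exact ⟨⟨c, hc1⟩, Subtype.ext hc2⟩)
    (Subtype.ext hh) (fun e => hh1 (congrArg Subtype.val e))
  exact ⟨c, c.2, congrArg Subtype.val hc'⟩

theorem hK2' : ∀ t : ZMod 2, t = 0 ∨ t = 1 := by decide

theorem card_G1 (Z : Sg (ZMod 2)) : Finite ↥(twF Z).G1 ∧ Nat.card ↥(twF Z).G1 = 25 * 1437696 := by
  have hfK : Finite (ZMod 2) := finite_K hK2'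
  have hfin : Finite ↥(twF Z).G1 := inferInstance
  have e0 := TwData.tw_Grp (twF Z)
  have hfin' : Finite ↥(twF Z).tw.Grp := by rw [e0]; infer_instance
  refine ⟨hfin, ?_⟩
  have h1 : Nat.card ↥(twF Z).tw.Grp = 4096 * 8775 := card_GrpK Z hK2'
  rw [e0] at h1
  rw [h1]

theorem x5_mem' (Z : Sg (ZMod 2)) (F : Facts Z) : x5 ∈ (twF Z).G1 := by
  obtain ⟨c, hc1, hc2⟩ := F.nsq1
  have h1 : nn8 1 = c * (g8 7 * g8 7) * c⁻¹ := by rw [← hc2, mul_inv_cancel_right]
  have h7 : (g8 7 : GF) ∈ (twF Z).G1 := g8_mem_G1 Z hK2' (by norm_num)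
  unfold x5
  rw [h1]
  exact mul_mem (mul_mem h7 h7) (mul_mem (mul_mem hc1 (mul_mem h7 h7)) (inv_mem hc1))

/-- elements of order five are conjugate -/
theorem h5_of (Z : Sg (ZMod 2)) (F : Facts Z) : ∀ h : GF, h ∈ (twF Z).G1 → h ^ 5 = 1 → h ≠ 1 →
    ∃ c ∈ (twF Z).G1, h = c * x5 * c⁻¹ := by
  intro h hG hh hh1
  obtain ⟨hfin, hcard⟩ := card_G1 Z
  obtain ⟨y, hy, hy5, hxy, hne, hc⟩ := F.y5
  exact syl5_sub (twF Z).G1 (x5_mem' Z F) hy hcard (by norm_num) F.hx5 F.hx5_ne hy5 hxy hne hc hG hh hh1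

end Cfsg.Agent.H80.Tits
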