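import Mathlib

set_option autoImplicit false

/-! Klein's fixed point count: a finite group acting so that every element outside the kernel `Z` has exactly
two fixed points, without orbits of length 1 or 2, has `|G : Z| = 12, 24, 60`. Owner: helper80. -/

namespace Cfsg.Agent.H80.TwoFix

theorem arith_sorted {a b c x y z N : ℕ} (ha : a * x = N) (hb : b * y = N) (hc : c * z = N)
    (hx : 2 ≤ x) (hxy : x ≤ y) (hyz : y ≤ z) (hc3 : 3 ≤ c) (hN : 2 ≤ N)
    (hsum : a + b + c = N + 2) : N = 12 ∨ N = 24 ∨ N = 60 := by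
  have hx2 : x = 2 := by
    by_contra hne
    have hx3 : 3 ≤ x := by omega
    have h1 : a * 3 ≤ N := by rw [← ha]; exact Nat.mul_le_mul_left _ hx3
    have h2 : b * 3 ≤ N := by rw [← hb]; exact Nat.mul_le_mul_left _ (by omega)
    have h3 : c * 3 ≤ N := by rw [← hc]; exact Nat.mul_le_mul_left _ (by omega)
    omega
  subst hx2
  have hy : y = 2 ∨ y = 3 := by
    by_contra hne
    have hy4 : 4 ≤ y := by omega
    have h2 : b * 4 ≤ N := by rw [← hb]; exact Nat.mul_le_mul_left _ hy4
    have h3 : c * 4 ≤ N := by rw [← hc]; exact Nat.mul_le_mul_left _ (by omega)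
    omega
  rcases hy with rfl | rfl
  · omega
  · have hz : z ≤ 5 := by
      by_contra hne
      have h3 : c * 6 ≤ N := by rw [← hc]; exact Nat.mul_le_mul_left _ (by omega)
      omega
    interval_cases z
    · omega
    · omega
    · omega

theorem arith_three {a b c x y z N : ℕ} (ha : a * x = N) (hb : b * y = N) (hc : c * z = N)
    (hx : 2 ≤ x) (hy : 2 ≤ y) (hz : 2 ≤ z) (ha3 : 3 ≤ a) (hb3 : 3 ≤ b) (hc3 : 3 ≤ c) (hN : 2 ≤ N)
    (hsum : a + b + c = N + 2) : N = 12 ∨ N = 24 ∨ N = 60 := by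
  rcases le_total x y with h1 | h1 <;> rcases le_total y z with h2 | h2 <;> rcases le_total x z with h3 | h3
  · exact arith_sorted ha hb hc hx h1 h2 hc3 hN hsum
  · exact arith_sorted ha hb hc hx h1 h2 hc3 hN hsum
  · exact arith_sorted ha hc hb hx h3 h2 hb3 hN (by omega)
  · exact arith_sorted hc ha hb hz h3 h1 hb3 hN (by omega)
  · exact arith_sorted hb ha hc hy h1 h3 hc3 hN (by omega)
  · exact arith_sorted hb hc ha hy h2 h3 ha3 hN (by omega)
  · exact arith_sorted hc hb ha hz h2 h1 ha3 hN (by omega)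
  · exact arith_sorted hc hb ha hz h2 h1 ha3 hN (by omega)

theorem arith_sum {Ω : Type*} [Fintype Ω] (s e : Ω → ℕ) (N : ℕ) (hN : 2 ≤ N)
    (hse : ∀ ω, s ω * e ω = N) (he : ∀ ω, 2 ≤ e ω) (hs : ∀ ω, 3 ≤ s ω)
    (hsum : ∑ ω, s ω + 2 * (N - 1) = Fintype.card Ω * N) : N = 12 ∨ N = 24 ∨ N = 60 := by
  have h1 : (∑ ω, s ω) * 2 ≤ Fintype.card Ω * N := by
    rw [Finset.sum_mul]
    calc ∑ ω, s ω * 2 ≤ ∑ _ω : Ω, N := Finset.sum_le_sum fun ω _ => by
          rw [← hse ω]; exact Nat.mul_le_mul_left _ (he ω)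
      _ = Fintype.card Ω * N := by rw [Finset.sum_const, smul_eq_mul, Finset.card_univ]
  have h2 : Fintype.card Ω * 3 ≤ ∑ ω, s ω := by
    calc Fintype.card Ω * 3 = ∑ _ω : Ω, 3 := by rw [Finset.sum_const, smul_eq_mul, Finset.card_univ]
      _ ≤ ∑ ω, s ω := Finset.sum_le_sum fun ω _ => hs ω
  have hr : Fintype.card Ω < 4 := by
    by_contra hcon
    push Not at hcon
    have : 4 * N ≤ Fintype.card Ω * N := Nat.mul_le_mul_right _ hcon
    omega
  have hr3 : Fintype.card Ω = 3 := by
    interval_cases h : Fintype.card Ω <;> omega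
  let f : Fin 3 ≃ Ω := (Fintype.equivFinOfCardEq hr3).symm
  have h3 : ∑ ω, s ω = s (f 0) + s (f 1) + s (f 2) := by
    rw [← Equiv.sum_comp f, Fin.sum_univ_three]
  rw [h3, hr3] at hsum
  exact arith_three (hse (f 0)) (hse (f 1)) (hse (f 2)) (he _) (he _) (he _) (hs _) (hs _) (hs _) hN (by omega)

theorem index_cases {G X : Type*} [Group G] [Finite G] [MulAction G X] (Z : Subgroup G)
    (hZ : ∀ z ∈ Z, ∀ x : X, z • x = x) (hfix : ∀ g ∉ Z, Set.ncard {x : X | g • x = x} = 2) (hne : Z ≠ ⊤)
    (horb : ∀ x : X, 3 ≤ (MulAction.stabilizer G x).index) :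
    Z.index = 12 ∨ Z.index = 24 ∨ Z.index = 60 := by
  classical
  have := Fintype.ofFinite G
  -- the fixed points
  have hfin : {x : X | ∃ g : G, g ∉ Z ∧ g • x = x}.Finite := by
    have h1 : {x : X | ∃ g : G, g ∉ Z ∧ g • x = x} = ⋃ g : {g : G // g ∉ Z}, {x : X | g.1 • x = x} := by
      ext x; simp
    rw [h1]
    apply Set.finite_iUnion
    intro g
    apply Set.finite_of_ncard_ne_zero
    rw [hfix g.1 g.2]; norm_num
  have hconjZ : ∀ (g A : G), A ∉ Z → g * A * g⁻¹ ∉ Z := by
    intro g A hA h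
    have hx : {x : X | A • x = x} = Set.univ := by
      ext x
      simp only [Set.mem_setOf_eq, Set.mem_univ, iff_true]
      have := hZ _ h (g • x)
      rw [mul_smul, inv_smul_smul, mul_smul] at this
      exact MulAction.injective g this
    have h2 := hfix A hA
    rw [hx] at h2
    -- then X has 2 points; orbits of size at least 3
    have : Finite X := by
      apply Set.finite_univ_iff.1
      apply Set.finite_of_ncard_ne_zero
      rw [h2]; norm_num
    obtain ⟨x⟩ : Nonempty X := by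
      by_contra hcon
      rw [not_nonempty_iff] at hcon
      rw [Set.ncard_univ, Nat.card_of_isEmpty] at h2
      omega
    have h3 := horb x
    rw [MulAction.index_stabilizer] at h3
    have h4 : (MulAction.orbit G x).ncard ≤ (Set.univ : Set X).ncard := Set.ncard_le_ncard (Set.subset_univ _) (Set.toFinite _)
    omega
  let Y : SubMulAction G X :=
    { carrier := {x : X | ∃ g : G, g ∉ Z ∧ g • x = x}
      smul_mem' := by
        rintro c x ⟨g, hg, hgx⟩
        exact ⟨c * g * c⁻¹, hconjZ c g hg, by rw [mul_smul, inv_smul_smul, mul_smul, hgx]⟩ }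
  have hYfin : Finite Y := hfin
  have := Fintype.ofFinite Y
  have := Fintype.ofFinite (MulAction.orbitRel.Quotient G Y)
  have hB := MulAction.sum_card_fixedBy_eq_card_orbits_mul_card_group G Y
  -- fixed points
  have hf1 : ∀ g ∈ Z, Fintype.card (MulAction.fixedBy Y g) = Fintype.card Y := by
    intro g hg
    apply Fintype.card_congr
    refine ⟨fun y => y.1, fun y => ⟨y, ?_⟩, fun _ => rfl, fun _ => rfl⟩
    rw [MulAction.mem_fixedBy]
    exact Subtype.ext (hZ g hg y)
  have hf2 : ∀ g ∉ Z, Fintype.card (MulAction.fixedBy Y g) = 2 := by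
    intro g hg
    rw [← hfix g hg, ← Nat.card_eq_fintype_card, ← Nat.card_coe_set_eq]
    apply Nat.card_congr
    refine ⟨fun y => ⟨y.1.1, congrArg Subtype.val (MulAction.mem_fixedBy.1 y.2)⟩,
      fun x => ⟨⟨x.1, ⟨g, hg, x.2⟩⟩, ?_⟩, fun _ => rfl, fun _ => rfl⟩
    rw [MulAction.mem_fixedBy]
    exact Subtype.ext x.2
  have hsum1 : ∑ g : G, Fintype.card (MulAction.fixedBy Y g) = Nat.card Z * Fintype.card Y + (Nat.card G - Nat.card Z) * 2 := by
    rw [← Finset.sum_filter_add_sum_filter_not Finset.univ (fun g : G => g ∈ Z)]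
    rw [Finset.sum_congr rfl (g := fun _ => Fintype.card Y) (fun g hg => hf1 g (Finset.mem_filter.1 hg).2)]
    rw [Finset.sum_congr rfl (s₁ := Finset.filter (fun g : G => ¬ g ∈ Z) Finset.univ) (g := fun _ => 2)
      (fun g hg => hf2 g (Finset.mem_filter.1 hg).2)]
    rw [Finset.sum_const, Finset.sum_const, smul_eq_mul, smul_eq_mul]
    have e1 : (Finset.filter (fun g : G => g ∈ Z) Finset.univ).card = Nat.card Z := by
      rw [Nat.card_eq_fintype_card, Fintype.card_subtype]
    have e2 : (Finset.filter (fun g : G => ¬ g ∈ Z) Finset.univ).card = Nat.card G - Nat.card Z := by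
      have := Finset.card_filter_add_card_filter_not (s := (Finset.univ : Finset G)) (fun g : G => g ∈ Z)
      rw [Finset.card_univ, ← Nat.card_eq_fintype_card] at this
      omega
    rw [e1, e2]
  have hNZ := Z.card_mul_index
  have hZpos : 0 < Nat.card Z := Nat.card_pos
  set N := Z.index with hN
  have hN2 : 2 ≤ N := by
    have h0 : N ≠ 0 := Subgroup.index_ne_zero_of_finite
    have h1 : N ≠ 1 := fun h => hne (Subgroup.index_eq_one.1 h)
    omega
  have key : Fintype.card Y + 2 * (N - 1) = Fintype.card (MulAction.orbitRel.Quotient G Y) * N := by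
    rw [hsum1, ← Nat.card_eq_fintype_card (α := G), ← hNZ] at hB
    have h1 : Nat.card Z * N - Nat.card Z = Nat.card Z * (N - 1) := by
      rw [Nat.mul_sub, mul_one]
    rw [h1] at hB
    have h2 : Nat.card Z * (Fintype.card Y + 2 * (N - 1)) =
        Nat.card Z * (Fintype.card (MulAction.orbitRel.Quotient G Y) * N) := by
      linarith
    exact Nat.eq_of_mul_eq_mul_left hZpos h2
  -- orbit sizes
  let s : MulAction.orbitRel.Quotient G Y → ℕ := fun ω => Nat.card ω.orbit
  have hs : ∀ ω : MulAction.orbitRel.Quotient G Y, ∃ y : Y, s ω = (MulAction.stabilizer G y).index := by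
    intro ω
    refine ⟨ω.out, ?_⟩
    rw [MulAction.index_stabilizer]
    change Nat.card ω.orbit = _
    rw [MulAction.orbitRel.Quotient.orbit_eq_orbit_out ω Quotient.out_eq', Nat.card_coe_set_eq]
  have hstab : ∀ y : Y, MulAction.stabilizer G y = MulAction.stabilizer G (y : X) := by
    intro y
    ext g
    rw [MulAction.mem_stabilizer_iff, MulAction.mem_stabilizer_iff]
    exact ⟨fun h => congrArg Subtype.val h, fun h => Subtype.ext h⟩
  have hcardY : Fintype.card Y = ∑ ω, s ω := by
    have e := MulAction.selfEquivSigmaOrbits' G Y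
    rw [← Nat.card_eq_fintype_card, Nat.card_congr e, Nat.card_sigma]
  have hdata : ∀ ω, ∃ e : ℕ, s ω * e = N ∧ 2 ≤ e ∧ 3 ≤ s ω := by
    intro ω
    obtain ⟨y, hy⟩ := hs ω
    rw [hstab] at hy
    have hle : Z ≤ MulAction.stabilizer G (y : X) := fun z hz => MulAction.mem_stabilizer_iff.2 (hZ z hz y)
    have h1 := Subgroup.relIndex_mul_index hle
    refine ⟨Z.relIndex (MulAction.stabilizer G (y : X)), ?_, ?_, ?_⟩
    · rw [hy, mul_comm]; exact h1
    · obtain ⟨g, hg, hgy⟩ := y.2
      have h0 : Z.relIndex (MulAction.stabilizer G (y : X)) ≠ 0 := by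
        intro h0
        rw [h0, zero_mul] at h1
        omega
      have h1 : Z.relIndex (MulAction.stabilizer G (y : X)) ≠ 1 := by
        intro h1
        rw [Subgroup.relIndex_eq_one] at h1
        exact hg (h1 (MulAction.mem_stabilizer_iff.2 hgy))
      omega
    · rw [hy]; exact horb y
  choose e he using hdata
  exact arith_sum s e N hN2 (fun ω => (he ω).1) (fun ω => (he ω).2.1) (fun ω => (he ω).2.2) (by rw [← hcardY]; exact key)

end Cfsg.Agent.H80.TwoFix
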